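import Cfsg.Agent.Lib.AutPOm.LangPlus

/-!
# The coset of a field or graph-field automorphism of the plus form
-/

set_option autoImplicit false
set_option linter.unusedSectionVars false
set_option linter.unusedSimpArgs false
set_option linter.unusedVariables false

namespace Cfsg.Agent.Lib.AutPOm

open Module QuadraticMap Cfsg.Agent.Lib.OrthoBasic Cfsg.Agent.Lib.OrthoSiegel Cfsg.Agent.Lib.OrthoGen
  Cfsg.Agent.Lib.OrthoFinal Cfsg.Agent.Lib.PgoPsi Cfsg.Agent.Lib.PgoGroup Cfsg.Agent.Lib.GammaCount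
  Cfsg.Agent.Lib.Hilbert90 Cfsg.Agent.Lib.QuadFF Cfsg.Agent.Lib.QuadClass Cfsg.Agent.Lib.OrthoCount
  Cfsg.Agent.Lib.PgoParity Cfsg.Agent.Lib.PgoClass Cfsg.Agent.Lib.OrthoChar
open Cfsg Matrix

variable {ι : Type} [Fintype ι] [DecidableEq ι] {F : Type*} [Field F]

section refl

variable {f : (ι → F) → F} {q : QuadraticForm F (ι → F)} {τ : F ≃+* F}

lemma polar_sv (hf : ∀ v, f v = q v) (hI : InvAt f τ) (x y : ι → F) :
    polar q (sv τ x) (sv τ y) = τ (polar q x y) := by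
  simp only [polar]
  rw [← sv_add', ← hf, ← hf, ← hf, ← hf, ← hf, ← hf, hI, hI, hI, map_sub, map_sub]

lemma glMap_mulVec (R : GL ι F) (v : ι → F) :
    ((glMap τ R : GL ι F) : Matrix ι ι F) *ᵥ v = sv τ ((R : Matrix ι ι F) *ᵥ sv τ.symm v) := by
  rw [sv_mulVec, sv_symm']
  rfl

lemma glMap_reflLin (hf : ∀ v, f v = q v) (hI : InvAt f τ) {R : GL ι F} {x : ι → F}
    (hR : ∀ v, (R : Matrix ι ι F) *ᵥ v = reflLin q x v) (v : ι → F) :
    ((glMap τ R : GL ι F) : Matrix ι ι F) *ᵥ v = reflLin q (sv τ x) v := by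
  rw [glMap_mulVec, hR, reflLin_apply, reflLin_apply]
  have h1 := polar_sv hf hI (sv τ.symm v) x
  rw [sv_symm'] at h1
  have h2 : q (sv τ x) = τ (q x) := by
    rw [← hf, ← hf]
    exact hI x
  have h3 : sv τ (sv τ.symm v - (polar q (sv τ.symm v) x / q x) • x) = v - τ (polar q (sv τ.symm v) x / q x) • sv τ x := by
    funext i
    simp [sv]
  rw [h3, h1, h2, map_div₀]

lemma sv_eq_of_fixed {x : ι → F} (h : ∀ i, τ (x i) = x i) : sv τ x = x := funext h

end refl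

section plus

universe u

variable {F : Type u} [Field F] [Fintype F] {m : ℕ}

/-- A rational vector with a nonzero value. -/
lemma exists_rat_vec (hm : 3 ≤ m) :
    ∃ x : Fin m ⊕ Fin m → F, qPlus m F x ≠ 0 ∧ ∀ (τ : F ≃+* F) i, τ (x i) = x i := by
  classical
  have i₀ : Fin m := ⟨0, by omega⟩
  refine ⟨Sum.elim (Pi.single i₀ 1) (Pi.single i₀ 1), ?_, ?_⟩
  · rw [qPlus_apply]
    simp [quadFormPlus, Pi.single_apply]
  · intro τ i
    rcases i with i | i <;> by_cases h : i = i₀ <;> simp [Pi.single_apply, h]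

lemma exists_refl_fixed (hm : 3 ≤ m) (σ : F ≃+* F) :
    ∃ (R : CO (quadFormPlus m F)) (x : Fin m ⊕ Fin m → F), qPlus m F x ≠ 0 ∧
      (∀ v, ((R : GL (Fin m ⊕ Fin m) F) : Matrix (Fin m ⊕ Fin m) (Fin m ⊕ Fin m) F) *ᵥ v = reflLin (qPlus m F) x v) ∧
      glMap σ (R : GL (Fin m ⊕ Fin m) F) = R := by
  obtain ⟨x, hx, hfix⟩ := exists_rat_vec (F := F) hm
  have S := sys_plus (F := F) hm
  obtain ⟨R, hR⟩ := exists_refl_CO S hx
  refine ⟨R, x, hx, hR, ?_⟩
  apply gl_ext_of_columns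
  intro j
  rw [glMap_reflLin S.hf (invAt_plus σ) hR, sv_eq_of_fixed (hfix σ), hR]

/-- The standard form of the automorphisms concerned. -/
theorem normal_form_plus (hm : 3 ≤ m) (hΓ : gammaPOmega F (quadFormPlus m F) = ⊤)
    (x : MulAut (POmega F (quadFormPlus m F)))
    (hx : IsFieldAutClassPOmega (quadFormPlus m F) x ∨ IsGraphFieldAutClassPOmegaPlus m x) :
    ∃ (σ : F ≃+* F) (B c R : CO (quadFormPlus m F)) (y : Fin m ⊕ Fin m → F), σ ≠ RingEquiv.refl F ∧
      dl B * x * (dl B)⁻¹ = dl c * fb (invAt_plus σ) ∧ qPlus m F y ≠ 0 ∧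
      (∀ v, ((R : GL (Fin m ⊕ Fin m) F) : Matrix (Fin m ⊕ Fin m) (Fin m ⊕ Fin m) F) *ᵥ v = reflLin (qPlus m F) y v) ∧
      Commute (dl R) (dl c * fb (invAt_plus σ)) := by
  classical
  have S := sys_plus (F := F) hm
  have hcomm : ∀ a b : F ≃+* F, a * b = b * a := fun a b => Cfsg.Agent.Lib.AutPSL.ringAut_comm a b
  have hconj : ∀ (α : MulAut (POmega F (quadFormPlus m F))) (σ : F ≃+* F) (c₀ : CO (quadFormPlus m F)),
      α * x * α⁻¹ = dl c₀ * fb (invAt_plus σ) →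
      ∃ (B : CO (quadFormPlus m F)) (τ : F ≃+* F), dl B * x * (dl B)⁻¹ = dl (glB (invAt_plus τ) c₀) * fb (invAt_plus σ) := by
    intro α σ c₀ h
    have hα : α ∈ gammaPOmega F (quadFormPlus m F) := by
      rw [hΓ]
      exact Subgroup.mem_top _
    obtain ⟨A, τ', hA, rfl⟩ := gs_range α hα
    rw [gs_eq_dl_fb (invAt_plus τ') hA] at h
    set A' : CO (quadFormPlus m F) := ⟨A, mem_CO_of_semisim_at (invAt_plus τ') hA⟩ with hA'
    refine ⟨glB (invAt_plus τ'⁻¹) A', τ'⁻¹, ?_⟩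
    have e0 : fb (invAt_plus (F := F) (m := m) τ'⁻¹) = (fb (invAt_plus τ'))⁻¹ := by
      rw [eq_inv_iff_mul_eq_one, fb_mul]
      have : τ'⁻¹ * τ' = 1 := inv_mul_cancel τ'
      have e := fb_one (f := quadFormPlus m F)
      rw [← e]
      congr 1
    have e1 : ∀ u : CO (quadFormPlus m F), dl (glB (invAt_plus τ'⁻¹) u) = (fb (invAt_plus τ'))⁻¹ * dl u * fb (invAt_plus τ') := by
      intro u
      rw [← conj_dl_fb, e0, inv_inv]
    have e4 : (fb (invAt_plus (F := F) (m := m) τ'))⁻¹ * fb (invAt_plus σ) * fb (invAt_plus τ') = fb (invAt_plus σ) := by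
      have : fb (invAt_plus (F := F) (m := m) σ) * fb (invAt_plus τ') = fb (invAt_plus τ') * fb (invAt_plus σ) := by
        rw [fb_mul, fb_mul]
        congr 1
        exact hcomm _ _
      rw [mul_assoc, this, inv_mul_cancel_left]
    rw [e1, e1]
    set U := dl A' * fb (invAt_plus τ') with hU
    set t := fb (invAt_plus (F := F) (m := m) τ') with ht
    have e3 : t⁻¹ * dl A' * t = t⁻¹ * U := by
      rw [hU, mul_assoc]
    rw [e3]
    calc t⁻¹ * U * x * (t⁻¹ * U)⁻¹ = t⁻¹ * (U * x * U⁻¹) * t := by group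
      _ = t⁻¹ * (dl c₀ * fb (invAt_plus σ)) * t := by rw [h]
      _ = t⁻¹ * dl c₀ * t * (t⁻¹ * fb (invAt_plus σ) * t) := by group
      _ = _ := by rw [e4]
  rcases hx with ⟨α, φ, σ, hσ, hφ, hconj'⟩ | ⟨α, γ, φ, σ, v, r, hσ, hv, hvfix, hr, hγ, hφ, hconj'⟩
  · rw [(isFieldAut_iff' (invAt_plus σ) φ).1 hφ] at hconj'
    obtain ⟨B, τ, hB⟩ := hconj α σ 1 (by rw [dl_one, one_mul]; exact hconj')
    obtain ⟨R, y, hy, hR, hRfix⟩ := exists_refl_fixed (F := F) hm σ
    rw [map_one, dl_one, one_mul] at hB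
    refine ⟨σ, B, 1, R, y, hσ, by rw [dl_one, one_mul]; exact hB, hy, hR, ?_⟩
    rw [dl_one, one_mul]
    exact commute_dl_fb_of_fixed _ S R hRfix
  · rw [(isFieldAut_iff' (invAt_plus σ) φ).1 hφ] at hconj'
    have hv' : qPlus m F v ≠ 0 := by
      rw [qPlus_apply]
      exact hv
    obtain ⟨R₀, hR₀⟩ := exists_refl_CO S hv'
    have hq : (quadFormPlus m F) = ⇑(qPlus m F) := funext fun w => (qPlus_apply m w).symm
    have hrR : r = (R₀ : GL (Fin m ⊕ Fin m) F) := by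
      apply gl_ext_of_columns
      intro j
      rw [hR₀, hr, hq, Cfsg.Agent.Lib.OrthForm.reflectionMatrix_mulVec, reflLin_apply, QuadraticMap.polar_comm, div_eq_inv_mul]
    subst hrR
    have hγ' : γ = dl R₀ := (PgoPsi.induced_iff _ R₀ γ).1 hγ
    obtain ⟨B, τ, hB⟩ := hconj α σ R₀ (by rw [← hγ']; exact hconj')
    refine ⟨σ, B, glB (invAt_plus τ) R₀, glB (invAt_plus τ) R₀, sv τ v, hσ, hB, ?_, glMap_reflLin S.hf (invAt_plus τ) hR₀, ?_⟩
    · rw [← S.hf]
      rw [invAt_plus τ v]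
      exact (map_ne_zero τ).2 hv
    · have hfixc : glMap σ ((glB (invAt_plus τ) R₀ : CO (quadFormPlus m F)) : GL (Fin m ⊕ Fin m) F) = (glB (invAt_plus τ) R₀ : CO (quadFormPlus m F)) := by
        change glMap σ (glMap τ _) = glMap τ _
        rw [← glMap_mul', hcomm σ τ, glMap_mul']
        congr 1
        apply gl_ext_of_columns
        intro j
        rw [glMap_reflLin S.hf (invAt_plus σ) hR₀, sv_eq_of_fixed hvfix, hR₀]
      have h1 := commute_dl_fb_of_fixed (invAt_plus σ) S _ hfixc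
      exact (Commute.refl _).mul_right h1

/-- The order of the automorphism of the field. -/
lemma order_sigma (hm : 3 ≤ m) {σ : F ≃+* F} (hσ : σ ≠ RingEquiv.refl F) (c : CO (quadFormPlus m F)) {r : ℕ} (hr : r.Prime)
    (h : (dl c * fb (invAt_plus σ)) ^ r = 1) : orderOf σ = r := by
  haveI : Fact r.Prime := ⟨hr⟩
  have S := sys_plus (F := F) hm
  rw [dl_mul_fb, gs_pow] at h
  have h1 := gs_eq_one_right S _ h
  exact orderOf_eq_prime h1 hσ

end plus

end Cfsg.Agent.Lib.AutPOm
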