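import Cfsg.Agent.Lib.AutPOm.LangMinus
import Cfsg.Agent.Lib.AutPOm.OddCount

/-!
# Centralisers and class counts of field automorphisms for forms of minus type
-/

set_option autoImplicit false
set_option linter.unusedSectionVars false
set_option linter.unusedSimpArgs false
set_option linter.unusedVariables false

namespace Cfsg.Agent.Lib.AutPOm

open Module QuadraticMap Cfsg.Agent.Lib.OrthoBasic Cfsg.Agent.Lib.OrthoSiegel Cfsg.Agent.Lib.OrthoGen
  Cfsg.Agent.Lib.OrthoFinal Cfsg.Agent.Lib.PgoPsi Cfsg.Agent.Lib.PgoGroup Cfsg.Agent.Lib.GammaCount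
  Cfsg.Agent.Lib.Hilbert90 Cfsg.Agent.Lib.QuadFF Cfsg.Agent.Lib.QuadClass Cfsg.Agent.Lib.OrthoCount
  Cfsg.Agent.Lib.PgoParity Cfsg.Agent.Lib.PgoClass Cfsg.Agent.Lib.OrthoChar
open Cfsg Matrix

section abs

variable {X Y : Type*} [Group X] [Group Y]

/-- Transport of the centraliser. -/
lemma centr_transfer (ψ : X ≃* Y) (G : Subgroup (MulAut X)) (G' : Subgroup (MulAut Y))
    (h1 : ∀ β ∈ G, trA ψ β ∈ G') (h2 : ∀ β ∈ G', (trA ψ).symm β ∈ G) {x : MulAut X} {φ : MulAut Y} (hφ : trA ψ x = φ) :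
    Nonempty (↥(G ⊓ Subgroup.centralizer {x}) ≃* ↥(G' ⊓ Subgroup.centralizer {φ})) := by
  have hmap : (G ⊓ Subgroup.centralizer {x}).map (trA ψ).toMonoidHom = G' ⊓ Subgroup.centralizer {φ} := by
    ext β
    constructor
    · rintro ⟨z, ⟨hz1, hz2⟩, rfl⟩
      refine ⟨h1 z hz1, ?_⟩
      replace hz2 : z ∈ Subgroup.centralizer {x} := hz2
      change trA ψ z ∈ Subgroup.centralizer {φ}
      rw [Subgroup.mem_centralizer_singleton_iff] at hz2 ⊢
      rw [← hφ, ← map_mul, ← map_mul, hz2]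
    · rintro ⟨hz1, hz2⟩
      refine ⟨(trA ψ).symm β, ⟨h2 β hz1, ?_⟩, MulEquiv.apply_symm_apply _ _⟩
      replace hz2 : β ∈ Subgroup.centralizer {φ} := hz2
      change (trA ψ).symm β ∈ Subgroup.centralizer {x}
      rw [Subgroup.mem_centralizer_singleton_iff] at hz2 ⊢
      apply (trA ψ).injective
      rw [map_mul, map_mul, MulEquiv.apply_symm_apply, hφ]
      exact hz2
  rw [← hmap]
  exact ⟨(trA ψ).subgroupMap _⟩

/-- Transport of the inner group. -/
lemma trA_Inn (ψ : X ≃* Y) {β : MulAut X} (hβ : β ∈ Inn X) : trA ψ β ∈ Inn Y := by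
  obtain ⟨k, rfl⟩ := hβ
  refine ⟨ψ k, ?_⟩
  ext y
  simp [trA_apply, MulAut.conj_apply]

/-- Transport of the class count. -/
theorem count_one_transfer (ψ : X ≃* Y) (G : Subgroup (MulAut X)) (G' : Subgroup (MulAut Y))
    (h1 : ∀ β ∈ G, trA ψ β ∈ G') (h2 : ∀ β ∈ G', (trA ψ).symm β ∈ G) (hInn : Inn Y ≤ G') {x : MulAut X} {φ : MulAut Y}
    (hφ : trA ψ x = φ)
    (hfac : ∀ β ∈ G', ∃ κ τ, κ ∈ Inn Y ∧ τ ∈ G' ∧ Commute τ φ ∧ β = κ * τ) :
    splitClassCount G (Inn X) x = 1 := by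
  let P : G' →* MulAut X := (trA ψ).symm.toMonoidHom.comp G'.subtype
  have hP : ∀ g : G', P g = (trA ψ).symm g.1 := fun g => rfl
  have hrange : P.range = G := by
    ext β
    constructor
    · rintro ⟨g, rfl⟩
      exact h2 _ g.2
    · intro hβ
      refine ⟨⟨trA ψ β, h1 β hβ⟩, ?_⟩
      rw [hP]
      exact MulEquiv.symm_apply_apply _ _
  have hK : Inn X ≤ P.range := by
    intro β hβ
    rw [hrange]
    have h3 := h2 _ (hInn (trA_Inn ψ hβ))
    rwa [MulEquiv.symm_apply_apply] at h3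
  have := Cfsg.Agent.Lib.AutPSL.split_count P (Inn X) x hK (fun k hk g => conj_Inn_mem _ _ hk) (1 : G' →* Unit) (fun _ => ⟨1, rfl⟩) (by
    intro g
    refine ⟨fun _ => ?_, fun _ => rfl⟩
    obtain ⟨κ, τ, hκ, hτ, hc, he⟩ := hfac g.1 g.2
    refine ⟨⟨κ, hInn hκ⟩, ⟨τ, hτ⟩, ?_, ?_, Subtype.ext he⟩
    · rw [hP]
      have h3 := trA_Inn ψ.symm hκ
      exact h3
    · rw [hP]
      have h4 : x = (trA ψ).symm φ := by
        rw [← hφ, MulEquiv.symm_apply_apply]
      rw [h4]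
      change (trA ψ).symm τ * (trA ψ).symm φ = (trA ψ).symm φ * (trA ψ).symm τ
      rw [← map_mul, ← map_mul, hc.eq])
  rw [hrange] at this
  rw [this]
  simp

end abs

section minus

variable {F₀ F : Type*} [Field F₀] [Field F] [Fintype F₀] [Fintype F] {m : ℕ} {j : F₀ →+* F} {σ : F ≃+* F} {a₀ b₀ : F₀} {a b : F}

lemma bc_minus' (j : F₀ →+* F) (hm : 2 ≤ m) (ha : j a₀ = a) (hb : j b₀ = b)
    (hab : ∀ z₁ z₂ : F, z₁ ^ 2 + a * z₁ * z₂ + b * z₂ ^ 2 = 0 → z₁ = 0 ∧ z₂ = 0)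
    (hfix : ∀ x, σ (j x) = j x) (hran : ∀ y, σ y = y → ∃ x, j x = y) :
    BC j σ (quadFormMinus m F₀ a₀ b₀) (quadFormMinus m F a b) (qMinus m a₀ b₀) (qMinus m a b) := by
  subst ha hb
  exact bc_minus j hm hab hfix hran

/-- A similarity lies over the inner-diagonal group exactly when its base change does. -/
theorem inndiag_base_change (hm : 2 ≤ m) (hab : ∀ z₁ z₂ : F, z₁ ^ 2 + a * z₁ * z₂ + b * z₂ ^ 2 = 0 → z₁ = 0 ∧ z₂ = 0)
    (hab₀ : ∀ z₁ z₂ : F₀, z₁ ^ 2 + a₀ * z₁ * z₂ + b₀ * z₂ ^ 2 = 0 → z₁ = 0 ∧ z₂ = 0)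
    (B : BC j σ (quadFormMinus m F₀ a₀ b₀) (quadFormMinus m F a b) (qMinus m a₀ b₀) (qMinus m a b))
    {r : ℕ} (hr : r ≠ 0) (hcard : Fintype.card F = Fintype.card F₀ ^ r) (g : CO (quadFormMinus m F₀ a₀ b₀)) :
    dl g ∈ inndiagPOmegaMinus m F₀ a₀ b₀ ↔
      dl (mapCO B.comp (fun v => B.S₀.hf v) (fun v => B.S.hf v) g) ∈ inndiagPOmegaMinus m F a b := by
  set mp := mapCO (j := j) (f₀ := quadFormMinus m F₀ a₀ b₀) (f := quadFormMinus m F a b) B.comp (fun v => B.S₀.hf v) (fun v => B.S.hf v) with hmp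
  rcases Nat.even_or_odd (Fintype.card F₀) with hq₀ | hodd₀
  · have hq : Even (Fintype.card F) := by
      rw [hcard]
      exact hq₀.pow_of_ne_zero hr
    rw [inndiag_minus_char2 hq₀ hm hab₀, inndiag_minus_char2 hq hm hab]
    obtain ⟨χ, h1, h2⟩ := exists_chi2_minus hm hab
    have key := char2_main hq (sys_minus hm hab) χ h1 h2
    have key₀ := char2_main hq₀ B.S₀ (χ.comp mp) (fun g x hx hg => ?_) (fun c => ?_) g
    · rw [← key, ← key₀]
      rfl
    · rw [MonoidHom.comp_apply]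
      apply h1 (mp g) (mapV j x)
      · rw [B.comp.map]
        exact (map_ne_zero j).2 hx
      · exact glJ_reflLin B.comp hg
    · rw [MonoidHom.comp_apply]
      have e : mp (scO B.S₀ c) = scO (sys_minus hm hab) (Units.map (j : F₀ →* F) c) := by
        apply Subtype.ext
        apply Units.ext
        ext s t
        change j (((sc c : GL (Ix m) F₀) : Matrix (Ix m) (Ix m) F₀) s t) = _
        change _ = ((sc (Units.map (j : F₀ →* F) c) : GL (Ix m) F) : Matrix (Ix m) (Ix m) F) s t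
        simp [sc_coe, Matrix.scalar_apply, Matrix.diagonal_apply]
        split_ifs <;> simp
      rw [e]
      exact h2 _
  · have hodd : Odd (Fintype.card F) := by
      rw [hcard]
      exact hodd₀.pow
    obtain ⟨n, rfl⟩ : ∃ n, m = n + 2 := ⟨m - 2, by omega⟩
    obtain ⟨c, hc⟩ := g.2
    have hc' : ∀ v, quadFormMinus (n + 2) F a b (((mp g : CO _) : GL (Ix (n + 2)) F).1 *ᵥ v) = (Units.map (j : F₀ →* F) c : Fˣ) * quadFormMinus (n + 2) F a b v := by
      intro v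
      rw [B.S.hf, B.S.hf]
      exact sim_glJ B.comp (c := c) (fun v => by rw [← B.S₀.hf, ← B.S₀.hf]; exact hc v) v
    rw [mem_inndiag_odd_iff' hodd₀ hab₀ g c hc, mem_inndiag_odd_iff' hodd hab (mp g) _ hc']
    have hdet : ((mp g : CO _) : GL (Ix (n + 2)) F).1.det = j ((g : GL (Ix (n + 2)) F₀).1.det) :=
      (RingHom.map_det j _).symm
    rw [hdet]
    simp only [Units.coe_map, MonoidHom.coe_coe]
    rw [← map_pow]
    exact j.injective.eq_iff.symm

lemma delta_of_dl_mem {n : ℕ} (D : Cfsg.Agent.Lib.PgoSim.Data (quadFormMinus (n + 2) F a b) (qMinus (n + 2) a b) (n + 3))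
    (g : CO (quadFormMinus (n + 2) F a b)) (h : dl g ∈ D.delta.ker.map (psiO (quadFormMinus (n + 2) F a b))) : D.delta g = 1 := by
  obtain ⟨g₁, hg₁, e⟩ := h
  obtain ⟨k, hk⟩ := (D.psiO_eq_iff g₁ g).1 e
  have h1 : D.delta g₁ = 1 := hg₁
  rw [hk, map_mul, D.delta_scalC, mul_one] at h1
  exact h1

/-- The inner group lies in the inner-diagonal group. -/
theorem Inn_le_inndiag (hm : 2 ≤ m) (hab : ∀ z₁ z₂ : F, z₁ ^ 2 + a * z₁ * z₂ + b * z₂ ^ 2 = 0 → z₁ = 0 ∧ z₂ = 0) :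
    Inn (POmega F (quadFormMinus m F a b)) ≤ inndiagPOmegaMinus m F a b := by
  rcases Nat.even_or_odd (Fintype.card F) with hq | hodd
  · rw [inndiag_minus_char2 hq hm hab]
  · obtain ⟨n, rfl⟩ : ∃ n, m = n + 2 := ⟨m - 2, by omega⟩
    obtain ⟨D, -⟩ := Cfsg.Agent.Lib.PgoInndiag.exists_data_minus hodd a b hab n
    rw [Cfsg.Agent.Lib.PgoInndiag.inndiag_minus a b hab n D]
    exact Cfsg.Agent.Lib.PgoInndiag.Data.Inn_le D

set_option maxHeartbeats 2000000 in
/-- Every class-preserving similarity is an inner one times a rational class-preserving one, when the degree is odd. -/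
theorem minus_factor (hm : 2 ≤ m) (hab : ∀ z₁ z₂ : F, z₁ ^ 2 + a * z₁ * z₂ + b * z₂ ^ 2 = 0 → z₁ = 0 ∧ z₂ = 0)
    (hab₀ : ∀ z₁ z₂ : F₀, z₁ ^ 2 + a₀ * z₁ * z₂ + b₀ * z₂ ^ 2 = 0 → z₁ = 0 ∧ z₂ = 0)
    (B : BC j σ (quadFormMinus m F₀ a₀ b₀) (quadFormMinus m F a b) (qMinus m a₀ b₀) (qMinus m a b))
    {r : ℕ} (hr : Odd r) (hcard : Fintype.card F = Fintype.card F₀ ^ r) (g : CO (quadFormMinus m F a b))
    (hg : dl g ∈ inndiagPOmegaMinus m F a b) :
    ∃ k u : CO (quadFormMinus m F a b), dl k ∈ Inn (POmega F (quadFormMinus m F a b)) ∧ dl u ∈ inndiagPOmegaMinus m F a b ∧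
      glMap σ (u : GL (Ix m) F) = u ∧ g = k * u := by
  classical
  have hr0 : r ≠ 0 := by
    rintro rfl
    simp at hr
  rcases Nat.even_or_odd (Fintype.card F₀) with hq₀ | hodd₀
  · have hq : Even (Fintype.card F) := by
      rw [hcard]
      exact hq₀.pow_of_ne_zero hr0
    rw [inndiag_minus_char2 hq hm hab] at hg ⊢
    refine ⟨g, 1, hg, ?_, map_one _, (mul_one _).symm⟩
    rw [dl_one]
    exact Subgroup.one_mem _
  · have hodd : Odd (Fintype.card F) := by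
      rw [hcard]
      exact hodd₀.pow
    obtain ⟨n, rfl⟩ : ∃ n, m = n + 2 := ⟨m - 2, by omega⟩
    obtain ⟨D, -⟩ := Cfsg.Agent.Lib.PgoInndiag.exists_data_minus hodd a b hab n
    obtain ⟨D₀, -⟩ := Cfsg.Agent.Lib.PgoInndiag.exists_data_minus hodd₀ a₀ b₀ hab₀ n
    have hG' := Cfsg.Agent.Lib.PgoInndiag.inndiag_minus a b hab n D
    have hG₀ := Cfsg.Agent.Lib.PgoInndiag.inndiag_minus a₀ b₀ hab₀ n D₀
    have hmemG : ∀ u : CO (quadFormMinus (n + 2) F a b), D.delta u = 1 → dl u ∈ inndiagPOmegaMinus (n + 2) F a b := by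
      intro u hu
      rw [hG']
      exact ⟨u, hu, rfl⟩
    have hdg : D.delta g = 1 := by
      rw [hG'] at hg
      exact delta_of_dl_mem D g hg
    set mp := mapCO (j := j) (f₀ := quadFormMinus (n + 2) F₀ a₀ b₀) (f := quadFormMinus (n + 2) F a b) B.comp (fun v => B.S₀.hf v) (fun v => B.S.hf v) with hmp
    set jh := mp D₀.hC with hjh
    have hjh_fix : glMap σ (jh : GL (Ix (n + 2)) F) = jh := glMap_glJ B.fix _
    have hjh_delta : D.delta jh = 1 := by
      have h1 : dl D₀.hC ∈ inndiagPOmegaMinus (n + 2) F₀ a₀ b₀ := by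
        rw [hG₀]
        exact ⟨D₀.hC, D₀.delta_hC, rfl⟩
      have h2 := (inndiag_base_change hm hab hab₀ B hr0 hcard D₀.hC).1 h1
      rw [hG'] at h2
      exact delta_of_dl_mem D _ h2
    have hν0 : ((D₀.ν : F₀ˣ) : F₀) ≠ 0 := D₀.ν.ne_zero
    have hns₀ : ¬ IsSquare (j ((D₀.ν : F₀ˣ) : F₀)) :=
      not_isSquare_j_of_odd j hodd₀ hr hcard hν0 D₀.ν_not_square
    have hjh_mult : D.multC jh = Units.map (j : F₀ →* F) D₀.ν := by
      apply D.multC_eq
      intro v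
      rw [B.S.hf, B.S.hf]
      exact sim_glJ B.comp (c := (D₀.ν : F₀)) (fun v => by
        rw [← B.S₀.hf, ← B.S₀.hf]
        exact D₀.hh v) v
    have hns : ¬ IsSquare (D.multC jh) := by
      rintro ⟨c, hc⟩
      apply hns₀
      refine ⟨(c : F), ?_⟩
      have := congrArg Units.val hc
      rw [hjh_mult] at this
      simpa using this
    obtain ⟨u₁, hu₁fix, hu₁δ, hu₁sq⟩ : ∃ u₁ : CO (quadFormMinus (n + 2) F a b), glMap σ (u₁ : GL (Ix (n + 2)) F) = u₁ ∧ D.delta u₁ = 1 ∧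
        IsSquare (D.multC (g * u₁⁻¹)) := by
      by_cases h : IsSquare (D.multC g)
      · refine ⟨1, map_one _, map_one _, ?_⟩
        simpa using h
      · refine ⟨jh, hjh_fix, hjh_delta, ?_⟩
        rw [map_mul, map_inv]
        apply Cfsg.Agent.Lib.PgoSim.Data.isSquare_mul_of_not _ _ h
        intro h3
        apply hns
        simpa using h3.inv
    obtain ⟨l, s, hs⟩ := D.decomp (g * u₁⁻¹) hu₁sq
    have hgdec : g = D.scalC l * Cfsg.Agent.Lib.PgoSim.Data.isoC s * u₁ := by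
      rw [← hs]
      group
    have hdet : Matrix.GeneralLinearGroup.det (s : GL (Ix (n + 2)) F) = 1 := by
      have := congrArg D.delta hs
      rw [map_mul, map_mul, map_inv, hdg, hu₁δ, D.delta_scalC, D.delta_isoC] at this
      simpa using this.symm
    have S := B.S
    have hfrE := D.fr
    have hE := omega_eq_E D.hQ D.hgen D.fr
    obtain ⟨fr₀⟩ := B.S₀.fr
    have hInnOf : ∀ t : isometryGroup F (quadFormMinus (n + 2) F a b), Matrix.GeneralLinearGroup.det (t : GL (Ix (n + 2)) F) = 1 →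
        chi (qMinus (n + 2) a b) (D.toOG t) = 1 → dl (D.scalC l * Cfsg.Agent.Lib.PgoSim.Data.isoC t) ∈ Inn (POmega F (quadFormMinus (n + 2) F a b)) := by
      intro t ht1 ht2
      have hmem : D.toOG t ∈ siegelE (qMinus (n + 2) a b) :=
        (odd_main D.hodd D.hQ D.hgen D.fr).2 _ ht2 (by rw [D.detO_toOG, ht1])
      have hom : t ∈ Omega F (quadFormMinus (n + 2) F a b) := (mem_omega_iff _ _ D.hf hE t).2 hmem
      have e0 : dl (D.scalC l) = 1 := D.psiO_scalC l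
      rw [dl_mul, e0, one_mul, Inn_eq]
      exact ⟨_, ⟨t, hom, rfl⟩, rfl⟩
    rcases Int.units_eq_one_or (chi (qMinus (n + 2) a b) (D.toOG s)) with hχ | hχ
    · exact ⟨_, u₁, hInnOf s hdet hχ, hmemG _ hu₁δ, hu₁fix, hgdec⟩
    · obtain ⟨a', ha', hchi⟩ := exists_chi_neg hodd hodd₀ B.comp B.S₀.hQ S.hgen fr₀ S.hQ D.fr hν0 hns₀
      obtain ⟨w, hw, hact⟩ := exists_of_rational B S a' ha'
      have hwO : toO S w = extO B.comp a' := toO_eq_extO B S hact
      set w' : isometryGroup F (quadFormMinus (n + 2) F a b) := ⟨w.1, w.2.1⟩ with hw'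
      have hw'det : Matrix.GeneralLinearGroup.det (w' : GL (Ix (n + 2)) F) = 1 := w.2.2
      have hw'χ : chi (qMinus (n + 2) a b) (D.toOG w') = -1 := by
        have e1 : D.toOG w' = toO S w := rfl
        rw [e1, hwO, hchi]
      have e2 : Cfsg.Agent.Lib.PgoSim.Data.isoC s = Cfsg.Agent.Lib.PgoSim.Data.isoC (s * w'⁻¹) * Cfsg.Agent.Lib.PgoSim.Data.isoC w' := by
        apply Subtype.ext
        change (s : GL (Ix (n + 2)) F) = ((s * w'⁻¹ : isometryGroup F (quadFormMinus (n + 2) F a b)) : GL (Ix (n + 2)) F) * (w' : GL (Ix (n + 2)) F)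
        rw [← Subgroup.coe_mul]
        simp
      have hmemI := hInnOf (s * w'⁻¹) (by
          rw [Subgroup.coe_mul, map_mul, hdet, Subgroup.coe_inv, map_inv, hw'det]
          simp) (by
          rw [map_mul, map_mul, hχ, map_inv, map_inv, hw'χ]
          decide)
      refine ⟨_, Cfsg.Agent.Lib.PgoSim.Data.isoC w' * u₁, hmemI, hmemG _ ?_, ?_, ?_⟩
      · rw [map_mul, hu₁δ, D.delta_isoC, hw'det, mul_one]
      · change glMap σ ((w' : GL (Ix (n + 2)) F) * (u₁ : GL (Ix (n + 2)) F)) = (w' : GL (Ix (n + 2)) F) * (u₁ : GL (Ix (n + 2)) F)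
        rw [map_mul, hu₁fix]
        congr 1
      · rw [hgdec, e2]
        group

end minus

end Cfsg.Agent.Lib.AutPOm
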