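import Cfsg.Agent.Lib.AutPOm.GraphField

/-!
# The class count of involutory graph-field automorphisms of the plus form
-/

set_option autoImplicit false
set_option linter.unusedSectionVars false
set_option linter.unusedSimpArgs false
set_option linter.unusedVariables false

namespace Cfsg.Agent.Lib.AutPOm

open Module QuadraticMap Cfsg.Agent.Lib.OrthoBasic Cfsg.Agent.Lib.OrthoSiegel Cfsg.Agent.Lib.OrthoGen
  Cfsg.Agent.Lib.OrthoFinal Cfsg.Agent.Lib.PgoPsi Cfsg.Agent.Lib.PgoGroup Cfsg.Agent.Lib.GammaCount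
  Cfsg.Agent.Lib.Hilbert90 Cfsg.Agent.Lib.QuadFF Cfsg.Agent.Lib.QuadClass Cfsg.Agent.Lib.OrthoCount
  Cfsg.Agent.Lib.PgoParity Cfsg.Agent.Lib.PgoClass Cfsg.Agent.Lib.OrthoChar Cfsg.Agent.Lib.OrthoIndex
  Cfsg.Agent.Lib.PgoInndiag
open Cfsg Matrix

section torus

variable {F : Type*} [Field F] [Fintype F] {ι : Type} [Fintype ι] [DecidableEq ι] {Q : QuadraticForm F (ι → F)} {J : Type*} [DecidableEq J]

open Classical in
/-- The quadratic character with values in `ℤˣ`. -/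
noncomputable def legU (u : F) : ℤˣ := if IsSquare u then 1 else -1

lemma legU_of_sq {u : F} (h : IsSquare u) : legU u = 1 := if_pos h

lemma legU_of_not {u : F} (h : ¬ IsSquare u) : legU u = -1 := if_neg h

/-- The torus element attached to a hyperbolic pair and a unit. -/
lemma exists_torus_one (hodd : Odd (Fintype.card F)) (hQ : Nondeg Q) (hgen : genR Q = ⊤) (fr : Frame Q)
    (ν : Fˣ) {a b : ι} (hab : a ≠ b)
    (hpair : IsHypPair Q (Pi.single a 1) (Pi.single b 1))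
    (hp1 : ∀ v, polar Q v (Pi.single b 1) = v a) (hp2 : ∀ v, polar Q v (Pi.single a 1) = v b) :
    ∃ t : OG Q, chi Q t = legU (ν : F) ∧ detO Q t = 1 ∧
      ∀ v x, ((t : (ι → F) ≃ₗ[F] (ι → F)) v) x = dPair (ν : F) a b x * v x := by
  have h2F := char_ne_two_of_odd hodd
  set e : ι → F := Pi.single a 1 with he
  set f' : ι → F := Pi.single b 1 with hf'
  have h1 : Q (e + f') = 1 := by
    rw [Q_add, hpair.Qe, hpair.Qf, hpair.B]; ring
  have h2 : Q (e + (ν : F) • f') = ν := by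
    rw [Q_add, Q_smul, hpair.Qe, hpair.Qf, polar_smul_r, hpair.B]; ring
  have h1' : Q (e + f') ≠ 0 := by rw [h1]; exact one_ne_zero
  have h2' : Q (e + (ν : F) • f') ≠ 0 := by rw [h2]; exact ν.ne_zero
  refine ⟨refl hQ h1' * refl hQ h2', ?_, ?_, ?_⟩
  · by_cases hs : IsSquare (ν : F)
    · rw [legU_of_sq hs]
      obtain ⟨d, hd⟩ := hs
      have hd0 : d ≠ 0 := by
        rintro rfl
        rw [mul_zero] at hd
        exact ν.ne_zero hd
      have hmem := refl_mul_inv_mem hQ fr (refl_isRefl hQ h2') (refl_isRefl hQ h1') hd0 (by rw [h1, h2, hd]; ring)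
      have h5 := hom_E (chi Q) hQ fr hmem
      rw [map_mul, map_inv] at h5
      have h6 := mul_inv_eq_one.1 h5
      rw [map_mul, ← h6]
      exact Int.units_mul_self _
    · rw [legU_of_not hs]
      apply Cfsg.Agent.Lib.PgoSim.chi_refl_mul hodd hQ hgen fr
      rw [h1, h2, one_mul]
      exact hs
  · have e1 : ∀ (x : ι → F) (hx : Q x ≠ 0), detO Q (refl hQ hx) = -1 := by
      intro x hx
      apply Units.ext
      rw [detO_refl hQ hx h2F]
      simp
    rw [map_mul, e1, e1]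
    simp
  · intro v x
    rw [Subgroup.coe_mul, LinearEquiv.mul_apply, refl_apply, refl_apply, torus_action hpair ν.ne_zero, hp1, hp2]
    simp only [Pi.add_apply, Pi.smul_apply, smul_eq_mul, he, hf', Pi.single_apply, dPair]
    by_cases hxa : x = a
    · subst hxa
      simp [hab]
      ring
    · by_cases hxb : x = b
      · subst hxb
        simp [Ne.symm hab]
        ring
      · simp [hxa, hxb]

/-- Products of torus elements. -/
lemma exists_torus_gen (hodd : Odd (Fintype.card F)) (hQ : Nondeg Q) (hgen : genR Q = ⊤) (fr : Frame Q)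
    {a b : J → ι} (hab : ∀ i, a i ≠ b i)
    (hpair : ∀ i, IsHypPair Q (Pi.single (a i) 1) (Pi.single (b i) 1))
    (hp1 : ∀ i v, polar Q v (Pi.single (b i) 1) = v (a i)) (hp2 : ∀ i v, polar Q v (Pi.single (a i) 1) = v (b i))
    (A : J → Fˣ) (S : Finset J) :
    ∃ t : OG Q, chi Q t = ∏ i ∈ S, legU (A i : F) ∧ detO Q t = 1 ∧
      ∀ v x, ((t : (ι → F) ≃ₗ[F] (ι → F)) v) x = (∏ i ∈ S, dPair (A i : F) (a i) (b i) x) * v x := by
  induction S using Finset.induction_on with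
  | empty =>
    exact ⟨1, by simp, by simp, fun v x => by simp⟩
  | insert i S hi ih =>
    obtain ⟨t, ht1, ht2, ht3⟩ := ih
    obtain ⟨s, hs1, hs2, hs3⟩ := exists_torus_one hodd hQ hgen fr (A i) (hab i) (hpair i) (hp1 i) (hp2 i)
    refine ⟨s * t, ?_, ?_, ?_⟩
    · rw [map_mul, hs1, ht1, Finset.prod_insert hi]
    · rw [map_mul, hs2, ht2, one_mul]
    · intro v x
      rw [Subgroup.coe_mul, LinearEquiv.mul_apply, hs3, ht3, Finset.prod_insert hi]
      ring

/-- Torus elements of the plus form. -/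
lemma torus_plus (hodd : Odd (Fintype.card F)) (n : ℕ) (A : Fin (n + 3) → Fˣ) :
    ∃ t : OG (qPlus (n + 3) F), chi (qPlus (n + 3) F) t = ∏ i, legU (A i : F) ∧ detO (qPlus (n + 3) F) t = 1 ∧
      (∀ v i, ((t : (Fin (n + 3) ⊕ Fin (n + 3) → F) ≃ₗ[F] (Fin (n + 3) ⊕ Fin (n + 3) → F)) v) (Sum.inl i) = (A i : F) * v (Sum.inl i)) ∧
      (∀ v i, ((t : (Fin (n + 3) ⊕ Fin (n + 3) → F) ≃ₗ[F] (Fin (n + 3) ⊕ Fin (n + 3) → F)) v) (Sum.inr i) = (A i : F)⁻¹ * v (Sum.inr i)) := by
  obtain ⟨fr⟩ := framePlus (F := F) n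
  obtain ⟨t, ht1, ht2, ht3⟩ := exists_torus_gen (J := Fin (n + 3)) hodd (Cfsg.Agent.Lib.OrthoOrder.nondeg_qPlus (n + 3)) (genR_qPlus (n + 3)) fr
    (a := Sum.inl) (b := Sum.inr) (fun i => by simp)
    (fun i => ⟨by rw [qPlus_apply]; simp [quadFormPlus], by rw [qPlus_apply]; simp [quadFormPlus],
      by rw [Cfsg.Agent.Lib.PgoClass.polar_qPlus]; simp [Pi.single_apply]⟩)
    (fun i v => by rw [Cfsg.Agent.Lib.PgoClass.polar_qPlus]; simp [Pi.single_apply])
    (fun i v => by rw [Cfsg.Agent.Lib.PgoClass.polar_qPlus]; simp [Pi.single_apply]) A Finset.univ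
  refine ⟨t, ht1, ht2, fun v i => ?_, fun v i => ?_⟩
  · rw [ht3]
    congr 1
    simp only [dPair, Sum.inl.injEq, reduceCtorEq, if_false]
    rw [Finset.prod_ite_eq]
    simp
  · rw [ht3]
    congr 1
    simp only [dPair, Sum.inr.injEq, reduceCtorEq, if_false]
    rw [Finset.prod_ite_eq]
    simp

end torus

section field

universe u v

variable {F : Type u} {F₀ : Type v} [Field F] [Fintype F] [Field F₀] [Fintype F₀] {σ : F ≃+* F} {j : F₀ →+* F}

/-- A non-square, its norm, and a square root of the norm. -/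
lemma exists_w_rho (hodd₀ : Odd (Fintype.card F₀)) (hcard : Fintype.card F = Fintype.card F₀ ^ 2) (hord : orderOf σ = 2)
    (hfix : ∀ x, σ (j x) = j x) (hran : ∀ y, σ y = y → ∃ x, j x = y) :
    ∃ (w ρ : Fˣ) (ν₀ : F₀ˣ), ¬ IsSquare (w : F) ∧ (w : F) * σ w = j ν₀ ∧ (ρ : F) * ρ = j ν₀ ∧ ¬ IsSquare (ν₀ : F₀) ∧
      (Fintype.card F₀ % 4 = 1 → ¬ IsSquare (ρ : F)) ∧ (Fintype.card F₀ % 4 = 3 → IsSquare (ρ : F)) := by
  have hodd : Odd (Fintype.card F) := by
    rw [hcard]
    exact hodd₀.pow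
  have hch : ringChar F ≠ 2 := by
    intro h
    have h1 := FiniteField.even_card_iff_char_two.1 h
    rw [Nat.odd_iff] at hodd
    omega
  have hch₀ : ringChar F₀ ≠ 2 := by
    intro h
    have h1 := FiniteField.even_card_iff_char_two.1 h
    rw [Nat.odd_iff] at hodd₀
    omega
  have hσσ : ∀ x, σ (σ x) = x := by
    intro x
    have h1 : σ ^ 2 = 1 := by
      rw [← hord]
      exact pow_orderOf_eq_one σ
    have h2 := congrArg (fun τ : F ≃+* F => τ x) h1
    exact h2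
  have h2F : (2 : F) ≠ 0 := char_ne_two_of_odd hodd
  have hsq : ∀ c : F₀, c ≠ 0 → IsSquare (j c) := fun c hc => isSquare_j_of_two j hodd₀ hcard hc
  obtain ⟨w, hw⟩ := FiniteField.exists_nonsquare hch
  have hw0 : w ≠ 0 := by
    rintro rfl
    exact hw IsSquare.zero
  obtain ⟨ν₀, hν₀⟩ := hran (w * σ w) (by rw [map_mul, hσσ, mul_comm])
  have hν : w * σ w ≠ 0 := mul_ne_zero hw0 ((map_ne_zero σ).2 hw0)
  have hν₀0 : ν₀ ≠ 0 := by
    rintro rfl
    rw [map_zero] at hν₀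
    exact hν hν₀.symm
  have hns₀ : ¬ IsSquare ν₀ := by
    rintro ⟨l, hl⟩
    have hl0 : l ≠ 0 := by
      rintro rfl
      apply hν₀0
      rw [hl, mul_zero]
    have hjl : j l ≠ 0 := (map_ne_zero j).2 hl0
    have hN : pnorm σ (w / j l) 2 = 1 := by
      simp only [pnorm, Finset.prod_range_succ, Finset.prod_range_zero, one_mul, pow_zero, pow_one]
      change w / j l * σ (w / j l) = 1
      rw [map_div₀, hfix]
      rw [hl, map_mul] at hν₀
      field_simp
      linear_combination -hν₀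
    obtain ⟨d, hd, hcd⟩ := exists_of_pnorm_eq_one σ (by norm_num) hord hN
    have hσd : σ d ≠ 0 := (map_ne_zero σ).2 hd
    obtain ⟨κ, hκ⟩ := hran (d * σ d) (by rw [map_mul, hσσ, mul_comm])
    have hκ0 : κ ≠ 0 := by
      rintro rfl
      rw [map_zero] at hκ
      exact (mul_ne_zero hd hσd) hκ.symm
    obtain ⟨e, he⟩ := hsq (l / κ) (div_ne_zero hl0 hκ0)
    apply hw
    refine ⟨e * d, ?_⟩
    have h1 : w = j l * d / σ d := by
      field_simp
      field_simp at hcd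
      linear_combination hcd
    have h2 : j (l / κ) = j l / (d * σ d) := by
      rw [map_div₀, hκ]
    rw [h2] at he
    rw [h1]
    have h3 : j l = e * e * (d * σ d) := by
      rw [div_eq_iff (mul_ne_zero hd hσd)] at he
      exact he
    rw [h3]
    field_simp
  obtain ⟨ρ, hρ⟩ := hsq ν₀ hν₀0
  have hρ0 : ρ ≠ 0 := by
    rintro rfl
    rw [mul_zero] at hρ
    exact (map_ne_zero j).2 hν₀0 hρ
  obtain ⟨a, ha⟩ := hodd₀
  have ha2 : Fintype.card F₀ / 2 = a := by omega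
  have hF2 : Fintype.card F / 2 = 2 * (a * (a + 1)) := by
    rw [hcard, ha]
    have : (2 * a + 1) ^ 2 = 2 * (2 * (a * (a + 1))) + 1 := by ring
    rw [this]
    omega
  have hν₀a : ν₀ ^ a = -1 := by
    have h1 := FiniteField.pow_dichotomy hch₀ hν₀0
    rw [ha2] at h1
    rcases h1 with h1 | h1
    · exfalso
      apply hns₀
      rw [FiniteField.isSquare_iff hch₀ hν₀0, ha2]
      exact h1
    · exact h1
  have hpow : ρ ^ (Fintype.card F / 2) = (-1) ^ (a + 1) := by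
    rw [hF2, pow_mul, pow_two, ← hρ, pow_mul, ← map_pow, hν₀a, map_neg, map_one]
  have hne : (-1 : F) ≠ 1 := by
    intro h
    apply h2F
    linear_combination -h
  refine ⟨Units.mk0 w hw0, Units.mk0 ρ hρ0, Units.mk0 ν₀ hν₀0, hw, hν₀.symm, hρ.symm, hns₀, fun h => ?_, fun h => ?_⟩
  · change ¬ IsSquare ρ
    rw [FiniteField.isSquare_iff hch hρ0, hpow]
    have hev : Even a := by
      rw [Nat.even_iff]
      omega
    rw [pow_succ, hev.neg_one_pow, one_mul]
    exact hne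
  · change IsSquare ρ
    rw [FiniteField.isSquare_iff hch hρ0, hpow]
    have hev : Even (a + 1) := by
      rw [Nat.even_iff]
      omega
    exact hev.neg_one_pow

end field

section std

variable {F : Type*} [Field F] [Fintype F] {m : ℕ}

/-- The standard vector. -/
def yv (l : Fin m) : Fin m ⊕ Fin m → F := Sum.elim (Pi.single l 1) (Pi.single l 1)

lemma q_yv (l : Fin m) : qPlus m F (yv l) = 1 := by
  rw [qPlus_apply]
  simp [quadFormPlus, yv, Pi.single_apply]

lemma polar_yv (l : Fin m) (v : Fin m ⊕ Fin m → F) : polar (qPlus m F) v (yv l) = v (Sum.inl l) + v (Sum.inr l) := by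
  rw [polar_qPlus]
  simp [yv, Pi.single_apply, Finset.sum_add_distrib]

lemma refl_yv_inl (l i : Fin m) (v : Fin m ⊕ Fin m → F) :
    reflLin (qPlus m F) (yv l) v (Sum.inl i) = if i = l then - v (Sum.inr l) else v (Sum.inl i) := by
  rw [reflLin_apply, polar_yv, q_yv, div_one]
  by_cases h : i = l
  · subst h
    simp [yv]
  · simp [yv, h]

lemma refl_yv_inr (l i : Fin m) (v : Fin m ⊕ Fin m → F) :
    reflLin (qPlus m F) (yv l) v (Sum.inr i) = if i = l then - v (Sum.inl l) else v (Sum.inr i) := by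
  rw [reflLin_apply, polar_yv, q_yv, div_one]
  by_cases h : i = l
  · subst h
    simp [yv]
  · simp [yv, h]

/-- A diagonal matrix compatible with the standard reflection. -/
lemma twist_diag {σ : F ≃+* F} (l : Fin m) {R t : GL (Fin m ⊕ Fin m) F}
    (hR : ∀ v, (R : Matrix (Fin m ⊕ Fin m) (Fin m ⊕ Fin m) F) *ᵥ v = reflLin (qPlus m F) (yv l) v)
    (E : Fin m ⊕ Fin m → F) (hE : ∀ v x, ((t : Matrix (Fin m ⊕ Fin m) (Fin m ⊕ Fin m) F) *ᵥ v) x = E x * v x)
    (h1 : σ (E (Sum.inr l)) = E (Sum.inl l)) (h2 : σ (E (Sum.inl l)) = E (Sum.inr l))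
    (h3 : ∀ i, i ≠ l → σ (E (Sum.inl i)) = E (Sum.inl i) ∧ σ (E (Sum.inr i)) = E (Sum.inr i)) :
    t * R = R * glMap σ t := by
  apply gl_ext_mulVec
  intro v
  have hσt : ∀ x, (((glMap σ t : GL (Fin m ⊕ Fin m) F) : Matrix (Fin m ⊕ Fin m) (Fin m ⊕ Fin m) F) *ᵥ v) x = σ (E x) * v x := by
    intro x
    rw [glMap_mulVec]
    change σ (((t : Matrix (Fin m ⊕ Fin m) (Fin m ⊕ Fin m) F) *ᵥ sv σ.symm v) x) = _
    rw [hE, map_mul]
    simp [sv]
  funext x
  rw [Units.val_mul, Units.val_mul, ← Matrix.mulVec_mulVec, ← Matrix.mulVec_mulVec, hE, hR, hR]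
  rcases x with i | i
  · rw [refl_yv_inl, refl_yv_inl]
    by_cases h : i = l
    · subst h
      simp only [if_true]
      rw [hσt, h1]
      ring
    · simp only [h, if_false]
      rw [hσt, (h3 i h).1]
  · rw [refl_yv_inr, refl_yv_inr]
    by_cases h : i = l
    · subst h
      simp only [if_true]
      rw [hσt, h2]
      ring
    · simp only [h, if_false]
      rw [hσt, (h3 i h).2]

end std

section abstractTw

variable {ι₀ ι : Type} [Fintype ι₀] [DecidableEq ι₀] [Fintype ι] [DecidableEq ι] {F₀ F : Type*} [Field F₀] [Field F]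
  {j : F₀ →+* F} {σ : F ≃+* F} {f₀ : (ι₀ → F₀) → F₀} {f : (ι → F) → F}
  {q₀ : QuadraticForm F₀ (ι₀ → F₀)} {q : QuadraticForm F (ι → F)} {c : GL ι F} {n₀ n : ℕ}

lemma commute_of_twist (hI : InvAt f σ) (cc u : CO f)
    (h : (u : GL ι F) * (cc : GL ι F) = (cc : GL ι F) * glMap σ (u : GL ι F)) : Commute (dl u) (dl cc * fb hI) := by
  change dl u * (dl cc * fb hI) = dl cc * fb hI * dl u
  rw [mul_assoc (dl cc), fb_mul_dl, ← mul_assoc, ← mul_assoc, ← dl_mul, ← dl_mul]
  congr 2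
  exact Subtype.ext h

lemma multC_mp (T : Tw j σ f₀ f q₀ q c) [Fintype F₀] [Fintype F] (D₀ : Cfsg.Agent.Lib.PgoSim.Data f₀ q₀ n₀) (D : Cfsg.Agent.Lib.PgoSim.Data f q n) (g : CO f₀) :
    D.multC (T.mp g) = Units.map (j : F₀ →* F) (D₀.multC g) := by
  apply D.multC_eq
  intro v
  rw [T.S.hf, T.S.hf]
  apply T.sim (g₀ := (g : GL ι₀ F₀)) (μ := D₀.multC g)
  intro w
  rw [← T.S₀.hf, ← T.S₀.hf]
  exact D₀.multC_spec g w

lemma scalC_eq_scO (S : Sys f q) [Fintype F] (D : Cfsg.Agent.Lib.PgoSim.Data f q n) (d : Fˣ) : scO S d = D.scalC d := Subtype.ext rfl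

/-- Elements commuting with the twisted automorphism have square multiplier. -/
lemma sq_of_commute (T : Tw j σ f₀ f q₀ q c) [Fintype F₀] [Fintype F] (D₀ : Cfsg.Agent.Lib.PgoSim.Data f₀ q₀ n₀) (D : Cfsg.Agent.Lib.PgoSim.Data f q n)
    (hsq : ∀ a : F₀, a ≠ 0 → IsSquare (j a)) (hI : InvAt f σ) (cc : CO f) (hcc : (cc : GL ι F) = c)
    {r : ℕ} (hr : 0 < r) (hord : orderOf σ = r) (z : CO f) (hz : Commute (dl z) (dl cc * fb hI)) :
    IsSquare (D.multC z) := by
  obtain ⟨l, hl⟩ := T.twist_of_commute hI cc hcc z hz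
  obtain ⟨d, g₀, hg₀⟩ := T.exists_of_twist hl hr hord
  have h1 := multC_mp T D₀ D g₀
  rw [hg₀, map_mul, scalC_eq_scO T.S D, Cfsg.Agent.Lib.PgoSim.Data.multC_scalC] at h1
  have h2 : IsSquare (Units.map (j : F₀ →* F) (D₀.multC g₀)) := by
    rw [← Cfsg.Agent.Lib.PgoGraphInv.isSquare_val_iff]
    exact hsq _ (D₀.multC g₀).ne_zero
  rw [← h1] at h2
  obtain ⟨e, he⟩ := h2
  refine ⟨e * d⁻¹, ?_⟩
  have h3 : D.multC z = (d * d)⁻¹ * (e * e) := by
    rw [← he]
    group
  rw [h3, mul_mul_mul_comm e d⁻¹ e d⁻¹, mul_inv, mul_comm]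

end abstractTw

section count

universe u v

variable {F : Type u} {F₀ : Type v} [Field F] [Fintype F] [Field F₀] [Fintype F₀] {n : ℕ} {σ : F ≃+* F} {j : F₀ →+* F} {a₀ b₀ : F₀}

open Cfsg.Agent.Lib.PgoSim.Data Cfsg.Agent.Lib.PgoGraphInv

set_option maxHeartbeats 4000000 in
/-- The class count. -/
theorem count_graph (hodd₀ : Odd (Fintype.card F₀)) (hcard : Fintype.card F = Fintype.card F₀ ^ 2) (hord : orderOf σ = 2)
    (hfix : ∀ x, σ (j x) = j x) (hran : ∀ y, σ y = y → ∃ x, j x = y)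
    (cc : CO (quadFormPlus (n + 3) F)) (l : Fin (n + 3))
    (hcc : ∀ v, ((cc : GL (Fin (n + 3) ⊕ Fin (n + 3)) F) : Matrix (Fin (n + 3) ⊕ Fin (n + 3)) (Fin (n + 3) ⊕ Fin (n + 3)) F) *ᵥ v = reflLin (qPlus (n + 3) F) (yv l) v)
    (T : Tw j σ (quadFormMinus (n + 2) F₀ a₀ b₀) (quadFormPlus (n + 3) F) (qMinus (n + 2) a₀ b₀) (qPlus (n + 3) F) (cc : GL (Fin (n + 3) ⊕ Fin (n + 3)) F))
    (D : Cfsg.Agent.Lib.PgoSim.Data (quadFormPlus (n + 3) F) (qPlus (n + 3) F) (n + 3))
    (D₀ : Cfsg.Agent.Lib.PgoSim.Data (quadFormMinus (n + 2) F₀ a₀ b₀) (qMinus (n + 2) a₀ b₀) (n + 3)) :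
    ((Odd (n + 3) ∧ Fintype.card F₀ % 4 = 1) → splitClassCount (Gd D) (Inn (POmega F (quadFormPlus (n + 3) F))) (dl cc * fb (invAt_plus σ)) = 4) ∧
    (¬ (Odd (n + 3) ∧ Fintype.card F₀ % 4 = 1) → splitClassCount (Gd D) (Inn (POmega F (quadFormPlus (n + 3) F))) (dl cc * fb (invAt_plus σ)) = 2) := by
  classical
  have hodd : Odd (Fintype.card F) := by
    rw [hcard]
    exact hodd₀.pow
  have hsq : ∀ a : F₀, a ≠ 0 → IsSquare (j a) := fun c hc => isSquare_j_of_two j hodd₀ hcard hc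
  have hneg : negEl (qPlus (n + 3) F) ∈ siegelE (qPlus (n + 3) F) := by
    rw [Cfsg.Agent.Lib.PgoFamilies.neg_plus hodd n]
    rintro ⟨-, h⟩
    rw [hcard] at h
    obtain ⟨a, ha⟩ := hodd₀
    rw [ha] at h
    have : (2 * a + 1) ^ 2 = 4 * (a * a + a) + 1 := by ring
    rw [this] at h
    omega
  have h4 : ((Inn (POmega F (quadFormPlus (n + 3) F))).subgroupOf (Gd D)).index = 4 := Cfsg.Agent.Lib.PgoInndiag.Data.relIndex_Gd D (D.relIndex_two hneg)
  obtain ⟨w, ρ, ν₀, hw, hwν, hρν, hν₀, hρ1, hρ3⟩ := exists_w_rho hodd₀ hcard hord hfix hran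
  have hσσ : ∀ x, σ (σ x) = x := by
    intro x
    have h1 : σ ^ 2 = 1 := by
      rw [← hord]
      exact pow_orderOf_eq_one σ
    have h2 := congrArg (fun τ : F ≃+* F => τ x) h1
    exact h2
  let A : Fin (n + 3) → Fˣ := fun i => if i = l then w / ρ else ρ
  have hAl : A l = w / ρ := if_pos rfl
  have hAi : ∀ i, i ≠ l → A i = ρ := fun i hi => if_neg hi
  obtain ⟨t, ht1, ht2, ht3, ht4⟩ := torus_plus hodd n A
  set s : isometryGroup F (quadFormPlus (n + 3) F) := D.toOG.symm t with hs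
  have hst : D.toOG s = t := MulEquiv.apply_symm_apply _ _
  have hdets : Matrix.GeneralLinearGroup.det (s : GL (Fin (n + 3) ⊕ Fin (n + 3)) F) = 1 := by
    rw [← D.detO_toOG, hst, ht2]
  have hs_apply : ∀ v, ((s : GL (Fin (n + 3) ⊕ Fin (n + 3)) F) : Matrix (Fin (n + 3) ⊕ Fin (n + 3)) (Fin (n + 3) ⊕ Fin (n + 3)) F) *ᵥ v =
      ((t : (Fin (n + 3) ⊕ Fin (n + 3) → F) ≃ₗ[F] (Fin (n + 3) ⊕ Fin (n + 3) → F)) v) := by
    intro v
    rw [← hst]
    rfl
  set t₁ : CO (quadFormPlus (n + 3) F) := D.scalC ρ * isoC s with ht₁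
  let E : Fin (n + 3) ⊕ Fin (n + 3) → F := Sum.elim (fun i => (ρ : F) * (A i : F)) (fun i => (ρ : F) * (A i : F)⁻¹)
  have hE : ∀ v x, (((t₁ : GL (Fin (n + 3) ⊕ Fin (n + 3)) F) : Matrix (Fin (n + 3) ⊕ Fin (n + 3)) (Fin (n + 3) ⊕ Fin (n + 3)) F) *ᵥ v) x = E x * v x := by
    intro v x
    have e1 : (t₁ : GL (Fin (n + 3) ⊕ Fin (n + 3)) F) = scalGL ρ * (s : GL (Fin (n + 3) ⊕ Fin (n + 3)) F) := rfl
    rw [e1, Units.val_mul, ← Matrix.mulVec_mulVec, scalGL_apply, hs_apply, Pi.smul_apply, smul_eq_mul]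
    rcases x with i | i
    · rw [ht3]
      simp only [E, Sum.elim_inl]
      ring
    · rw [ht4]
      simp only [E, Sum.elim_inr]
      ring
  have hρ0 : (ρ : F) ≠ 0 := ρ.ne_zero
  have hw0 : (w : F) ≠ 0 := w.ne_zero
  have hAl' : (A l : F) = (w : F) / ρ := by
    rw [hAl]
    simp
  have hσw : σ (w : F) ≠ 0 := (map_ne_zero σ).2 hw0
  have hEl1 : E (Sum.inl l) = w := by
    simp only [E, Sum.elim_inl]
    rw [hAl']
    field_simp
  have hEl2 : E (Sum.inr l) = σ (w : F) := by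
    simp only [E, Sum.elim_inr]
    rw [hAl', inv_div]
    have : (ρ : F) * ρ = w * σ w := hρν.trans hwν.symm
    field_simp
    linear_combination this
  have hEi1 : ∀ i, i ≠ l → E (Sum.inl i) = j ν₀ := by
    intro i hi
    simp only [E, Sum.elim_inl]
    rw [hAi i hi]
    exact hρν
  have hEi2 : ∀ i, i ≠ l → E (Sum.inr i) = 1 := by
    intro i hi
    simp only [E, Sum.elim_inr]
    rw [hAi i hi]
    exact mul_inv_cancel₀ hρ0
  have htw : (t₁ : GL (Fin (n + 3) ⊕ Fin (n + 3)) F) * (cc : GL (Fin (n + 3) ⊕ Fin (n + 3)) F) =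
      (cc : GL (Fin (n + 3) ⊕ Fin (n + 3)) F) * glMap σ (t₁ : GL (Fin (n + 3) ⊕ Fin (n + 3)) F) := by
    apply twist_diag l hcc E hE
    · rw [hEl1, hEl2, hσσ]
    · rw [hEl1, hEl2]
    · intro i hi
      rw [hEi1 i hi, hEi2 i hi, hfix, map_one]
      exact ⟨rfl, rfl⟩
  have hcomm₁ : Commute (dl t₁) (dl cc * fb (invAt_plus σ)) := commute_of_twist _ cc t₁ htw
  have hδ₁ : D.delta t₁ = 1 := by
    rw [ht₁, map_mul, D.delta_scalC, one_mul, D.delta_isoC, hdets]
  have hpsi₁ : psiO (quadFormPlus (n + 3) F) t₁ = psiO (quadFormPlus (n + 3) F) (isoC s) := by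
    rw [ht₁, map_mul, D.psiO_scalC, one_mul]
  have hinn₁ : psiO (quadFormPlus (n + 3) F) t₁ ∈ Inn (POmega F (quadFormPlus (n + 3) F)) ↔ chi (qPlus (n + 3) F) t = 1 := by
    rw [hpsi₁, D.inn_iff_chi hneg s hdets, hst]
  have hval : chi (qPlus (n + 3) F) t = legU ((w / ρ : Fˣ) : F) * legU (ρ : F) ^ (n + 2) := by
    rw [ht1, ← Finset.mul_prod_erase Finset.univ _ (Finset.mem_univ l), hAl]
    congr 1
    rw [Finset.prod_congr rfl (g := fun _ => legU (ρ : F)) (fun i hi => by rw [hAi i (Finset.ne_of_mem_erase hi)]), Finset.prod_const,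
      Finset.card_erase_of_mem (Finset.mem_univ l), Finset.card_univ, Fintype.card_fin]
    rfl
  have hwρ_of : ¬ IsSquare (ρ : F) → IsSquare ((w / ρ : Fˣ) : F) := by
    intro hρn
    have h1 := isSquare_mul_of_not w ρ ((isSquare_val_iff w).not.1 hw) ((isSquare_val_iff ρ).not.1 hρn)
    have h2 : w / ρ = (w * ρ) * (ρ⁻¹ * ρ⁻¹) := by
      rw [div_eq_mul_inv]
      group
    rw [isSquare_val_iff, h2]
    exact h1.mul ⟨ρ⁻¹, rfl⟩
  have hwρ_of' : IsSquare (ρ : F) → ¬ IsSquare ((w / ρ : Fˣ) : F) := by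
    intro hρs hsq'
    apply hw
    have h1 : (w : F) = ((w / ρ : Fˣ) : F) * ρ := by
      simp [hρ0]
    rw [h1]
    exact hsq'.mul hρs
  refine ⟨?_, ?_⟩
  · rintro ⟨hm, h1⟩
    have hρn := hρ1 h1
    have hchi : chi (qPlus (n + 3) F) t = 1 := by
      rw [hval, legU_of_sq (hwρ_of hρn), legU_of_not hρn, one_mul]
      have hev : Even (n + 2) := by
        obtain ⟨k, hk⟩ := hm
        exact ⟨k, by omega⟩
      exact hev.neg_one_pow
    have hinn := hinn₁.2 hchi
    have key : ∀ g : CO (quadFormMinus (n + 2) F₀ a₀ b₀), D.delta (T.mp g) = 1 → IsSquare (D₀.multC g) → psiO (quadFormPlus (n + 3) F) (T.mp g) ∈ Inn (POmega F (quadFormPlus (n + 3) F)) := by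
      intro g hδ hg
      obtain ⟨l₀, a, rfl⟩ := D₀.decomp g hg
      have e1 : T.mp (D₀.scalC l₀) = D.scalC (Units.map (j : F₀ →* F) l₀) := by
        rw [← scalC_eq_scO T.S₀ D₀, ← scalC_eq_scO T.S D]
        exact T.mp_sc l₀
      have e2 : T.mp (isoC a) = isoC (T.isoT a) := Subtype.ext rfl
      rw [map_mul, map_mul, e1, e2, D.delta_scalC, one_mul, D.delta_isoC] at hδ
      rw [map_mul, map_mul, e1, e2, D.psiO_scalC, one_mul, D.inn_iff_chi hneg _ hδ]
      have hdet₀ : detO (qMinus (n + 2) a₀ b₀) (isoOG _ (qMinus (n + 2) a₀ b₀) T.S₀.hf a) = 1 := by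
        have h3 := D₀.detO_toOG a
        have h5 : D₀.toOG a = isoOG _ (qMinus (n + 2) a₀ b₀) T.S₀.hf a := rfl
        rw [← h5, h3]
        apply Units.ext
        apply j.injective
        have h6 := T.det_mp (isoC a)
        rw [Units.val_one, map_one]
        have h7 := congrArg Units.val hδ
        rw [Units.val_one] at h7
        exact h6.symm.trans h7
      have h8 := T.chi_th hodd₀ hsq _ hdet₀
      have e3 : T.th (isoOG _ (qMinus (n + 2) a₀ b₀) T.S₀.hf a) = D.toOG (T.isoT a) := by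
        change isoOG _ _ T.S.hf (T.isoT ((isoOG _ _ T.S₀.hf).symm (isoOG _ _ T.S₀.hf a))) = _
        rw [MulEquiv.symm_apply_apply]
      rw [← e3]
      exact h8
    rw [count_of_le _ _ (Cfsg.Agent.Lib.PgoInndiag.Data.Inn_le D) (hcomm_Gd D)]
    · exact h4
    · rintro ⟨_, z, hz, rfl⟩ hc
      change Commute (dl z) _ at hc
      change psiO (quadFormPlus (n + 3) F) z ∈ _
      obtain ⟨l', hl'⟩ := T.twist_of_commute _ cc rfl z hc
      obtain ⟨d, g₀, hg₀⟩ := T.exists_of_twist hl' (by norm_num) hord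
      have hz1 : D.delta z = 1 := hz
      have hpz : psiO (quadFormPlus (n + 3) F) z = psiO (quadFormPlus (n + 3) F) (T.mp g₀) := by
        rw [hg₀, map_mul, scalC_eq_scO T.S D, D.psiO_scalC, one_mul]
      have hδg : D.delta (T.mp g₀) = 1 := by
        rw [hg₀, map_mul, scalC_eq_scO T.S D, D.delta_scalC, one_mul, hz1]
      obtain ⟨g₁, hg₁⟩ := T.exists_of_twist_one htw
      have hmg₁ : ¬ IsSquare (D₀.multC g₁) := by
        have h6 := multC_mp T D₀ D g₁
        rw [hg₁, ht₁, map_mul, D.multC_scalC, D.multC_isoC, mul_one] at h6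
        have h7 : D₀.multC g₁ = ν₀ := by
          apply Units.ext
          apply j.injective
          have h8 := congrArg Units.val h6
          simp only [Units.val_mul, Units.coe_map, MonoidHom.coe_coe] at h8
          rw [← h8, hρν]
        rw [h7, ← isSquare_val_iff]
        exact hν₀
      rw [hpz]
      by_cases hsqg : IsSquare (D₀.multC g₀)
      · exact key g₀ hδg hsqg
      · have h9 := key (g₀ * g₁) (by rw [map_mul, map_mul, hδg, hg₁, hδ₁, one_mul]) (by
          rw [map_mul]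
          exact isSquare_mul_of_not _ _ hsqg hmg₁)
        rw [map_mul, map_mul, hg₁] at h9
        have h10 := (Inn (POmega F (quadFormPlus (n + 3) F))).mul_mem h9 ((Inn (POmega F (quadFormPlus (n + 3) F))).inv_mem hinn)
        rwa [mul_inv_cancel_right] at h10
  · intro hnot
    have hchi : chi (qPlus (n + 3) F) t = -1 := by
      rw [hval]
      have hc : Fintype.card F₀ % 4 = 1 ∨ Fintype.card F₀ % 4 = 3 := by
        obtain ⟨a, ha⟩ := hodd₀
        omega
      rcases hc with h1 | h1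
      · have hρn := hρ1 h1
        rw [legU_of_sq (hwρ_of hρn), legU_of_not hρn, one_mul]
        have hev : Odd (n + 2) := by
          by_contra hev
          rw [Nat.not_odd_iff_even] at hev
          apply hnot
          refine ⟨?_, h1⟩
          obtain ⟨k, hk⟩ := hev
          exact ⟨k, by omega⟩
        exact hev.neg_one_pow
      · have hρs := hρ3 h1
        rw [legU_of_not (hwρ_of' hρs), legU_of_sq hρs, one_pow, mul_one]
    have hnotinn : psiO (quadFormPlus (n + 3) F) t₁ ∉ Inn (POmega F (quadFormPlus (n + 3) F)) := by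
      intro h
      rw [hinn₁.1 h] at hchi
      exact absurd hchi (by decide)
    apply count_of_four _ _ (Cfsg.Agent.Lib.PgoInndiag.Data.Inn_le D) (hcomm_Gd D) _ h4
      ⟨⟨psiO (quadFormPlus (n + 3) F) t₁, Gd_mem D hδ₁⟩, hcomm₁, hnotinn⟩
    refine ⟨⟨psiO (quadFormPlus (n + 3) F) D.hC, Gd_mem D D.delta_hC⟩, ?_⟩
    rintro ⟨k, ⟨_, z, hz, rfl⟩, hk, hc, he⟩
    change Commute (dl z) _ at hc
    have hzs := sq_of_commute T D₀ D hsq _ cc rfl (by norm_num) hord z hc
    have hk' : psiO (quadFormPlus (n + 3) F) (D.hC * z⁻¹) ∈ Inn (POmega F (quadFormPlus (n + 3) F)) := by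
      have h1 : psiO (quadFormPlus (n + 3) F) D.hC = k.1 * psiO (quadFormPlus (n + 3) F) z := congrArg Subtype.val he
      rw [map_mul, map_inv, h1, mul_inv_cancel_right]
      exact hk
    by_contra hcon
    apply Cfsg.Agent.Lib.PgoInndiag.Data.not_inn_of_nonsq D (D.hC * z⁻¹) _ hk'
    intro hs2
    apply D.ν_not_square
    rw [isSquare_val_iff, ← D.multC_hC]
    have h2 : D.multC D.hC = D.multC (D.hC * z⁻¹) * D.multC z := by
      rw [← map_mul, inv_mul_cancel_right]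
    rw [h2]
    exact hs2.mul hzs

end count

end Cfsg.Agent.Lib.AutPOm
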