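import Cfsg.Agent.Lib.AutPOm.Twist
import Cfsg.Agent.Lib.FieldPOm.Fam
import Cfsg.Agent.Lib.AutPOm.Embed

/-!
# Involutory graph-field automorphisms of the plus form
-/

set_option autoImplicit false
set_option linter.unusedSectionVars false
set_option linter.unusedSimpArgs false
set_option linter.unusedVariables false

namespace Cfsg.Agent.Lib.AutPOm

open Module QuadraticMap Cfsg.Agent.Lib.OrthoBasic Cfsg.Agent.Lib.OrthoSiegel Cfsg.Agent.Lib.OrthoGen
  Cfsg.Agent.Lib.OrthoFinal Cfsg.Agent.Lib.PgoPsi Cfsg.Agent.Lib.PgoGroup Cfsg.Agent.Lib.GammaCount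
  Cfsg.Agent.Lib.Hilbert90 Cfsg.Agent.Lib.QuadFF Cfsg.Agent.Lib.QuadClass Cfsg.Agent.Lib.OrthoCount
  Cfsg.Agent.Lib.PgoParity Cfsg.Agent.Lib.PgoClass Cfsg.Agent.Lib.OrthoChar Cfsg.Agent.Lib.OrthoIndex
open Cfsg Matrix

section inndiag

universe u v

variable {F : Type u} {F₀ : Type v} [Field F] [Fintype F] [Field F₀] [Fintype F₀] {n : ℕ} {σ : F ≃+* F} {j : F₀ →+* F}
  {a₀ b₀ : F₀} {c : GL (Fin (n + 3) ⊕ Fin (n + 3)) F}

/-- The inner-diagonal group over the small field and the class over the large field. -/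
theorem inndiag_tw (T : Tw j σ (quadFormMinus (n + 2) F₀ a₀ b₀) (quadFormPlus (n + 3) F) (qMinus (n + 2) a₀ b₀) (qPlus (n + 3) F) c)
    (hab₀ : ∀ z₁ z₂ : F₀, z₁ ^ 2 + a₀ * z₁ * z₂ + b₀ * z₂ ^ 2 = 0 → z₁ = 0 ∧ z₂ = 0)
    (χ : CO (quadFormPlus (n + 3) F) →* Multiplicative (ZMod 2))
    (hχ : ∀ g : CO (quadFormPlus (n + 3) F), χ g = 1 ↔ PreservesSingularClasses (quadFormPlus (n + 3) F) ((g : GL (Fin (n + 3) ⊕ Fin (n + 3)) F) : Matrix (Fin (n + 3) ⊕ Fin (n + 3)) (Fin (n + 3) ⊕ Fin (n + 3)) F))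
    (hχr : ∀ (g : CO (quadFormPlus (n + 3) F)) (x : Fin (n + 3) ⊕ Fin (n + 3) → F), qPlus (n + 3) F x ≠ 0 →
        (∀ v, ((g : GL (Fin (n + 3) ⊕ Fin (n + 3)) F) : Matrix (Fin (n + 3) ⊕ Fin (n + 3)) (Fin (n + 3) ⊕ Fin (n + 3)) F).mulVec v = reflLin (qPlus (n + 3) F) x v) →
        χ g = Multiplicative.ofAdd 1)
    (hcard : Fintype.card F = Fintype.card F₀ ^ 2) (g₀ : CO (quadFormMinus (n + 2) F₀ a₀ b₀)) :
    dl g₀ ∈ inndiagPOmegaMinus (n + 2) F₀ a₀ b₀ ↔ χ (T.mp g₀) = 1 := by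
  rcases Nat.even_or_odd (Fintype.card F₀) with hq₀ | hodd₀
  · rw [inndiag_minus_char2 hq₀ (by omega) hab₀]
    have key := char2_main hq₀ T.S₀ (χ.comp T.mp) (fun g x hx hg => ?_) (fun c₀ => ?_) g₀
    · exact key.symm
    · rw [MonoidHom.comp_apply]
      exact hχr _ _ (T.q_W_ne hx) (T.mp_reflLin hg)
    · rw [MonoidHom.comp_apply, T.mp_sc, hχ]
      exact preserves_scalar _ _
  · have hodd : Odd (Fintype.card F) := by
      rw [hcard]
      exact hodd₀.pow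
    have h2 : (2 : F) ≠ 0 := char_ne_two_of_odd hodd
    obtain ⟨μ, hμ⟩ := g₀.2
    rw [mem_inndiag_odd_iff' hodd₀ hab₀ g₀ μ hμ]
    have hμ' : ∀ v, quadFormPlus (n + 3) F (((T.mp g₀ : GL (Fin (n + 3) ⊕ Fin (n + 3)) F) : Matrix (Fin (n + 3) ⊕ Fin (n + 3)) (Fin (n + 3) ⊕ Fin (n + 3)) F) *ᵥ v) = j μ * quadFormPlus (n + 3) F v := by
      intro v
      rw [T.S.hf, T.S.hf]
      apply T.sim
      intro w
      rw [← T.S₀.hf, ← T.S₀.hf]
      exact hμ w
    rw [hχ, preserves_plus_iff h2 (n + 3) (by omega) _ ((map_ne_zero j).2 μ.ne_zero) hμ', T.det_mp, ← map_pow]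
    exact j.injective.eq_iff.symm

/-- The centraliser in the inner-diagonal group. -/
theorem cent_graph (T : Tw j σ (quadFormMinus (n + 2) F₀ a₀ b₀) (quadFormPlus (n + 3) F) (qMinus (n + 2) a₀ b₀) (qPlus (n + 3) F) c)
    (hab₀ : ∀ z₁ z₂ : F₀, z₁ ^ 2 + a₀ * z₁ * z₂ + b₀ * z₂ ^ 2 = 0 → z₁ = 0 ∧ z₂ = 0)
    (hI : InvAt (quadFormPlus (n + 3) F) σ) (cc : CO (quadFormPlus (n + 3) F)) (hcc : (cc : GL (Fin (n + 3) ⊕ Fin (n + 3)) F) = c) {r : ℕ} (hr : 0 < r) (hord : orderOf σ = r)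
    (hcard : Fintype.card F = Fintype.card F₀ ^ 2) :
    Nonempty (↥(inndiagPOmegaPlus (n + 3) F ⊓ Subgroup.centralizer {(dl cc * fb hI : MulAut (POmega F (quadFormPlus (n + 3) F)))}) ≃*
      ↥(inndiagPOmegaMinus (n + 2) F₀ a₀ b₀)) := by
  obtain ⟨χ, hχ, hχr⟩ := exists_chi_plus (F := F) (n + 3) (by omega)
  have e := T.cent_equiv hI cc hcc hr hord χ.ker ((inndiagPOmegaMinus (n + 2) F₀ a₀ b₀).comap (psiO _))
    (fun g => by
      change dl g ∈ inndiagPOmegaMinus (n + 2) F₀ a₀ b₀ ↔ χ (T.mp g) = 1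
      exact inndiag_tw T hab₀ χ hχ hχr hcard g)
    (fun g d => by
      rw [MonoidHom.mem_ker, MonoidHom.mem_ker, map_mul]
      have : χ (scO T.S d) = 1 := by
        rw [hχ]
        exact preserves_scalar _ _
      rw [this, one_mul])
  rw [← inndiag_plus_eq (n + 3) (by omega) χ hχ] at e
  have hA₀ : ((inndiagPOmegaMinus (n + 2) F₀ a₀ b₀).comap (psiO (quadFormMinus (n + 2) F₀ a₀ b₀))).map (psiO _) = inndiagPOmegaMinus (n + 2) F₀ a₀ b₀ := by
    apply Subgroup.map_comap_eq_self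
    intro β hβ
    obtain ⟨g, -, rfl⟩ := inndiag_le_range hβ
    exact ⟨g, rfl⟩
  rw [hA₀] at e
  exact e

end inndiag

section normal

universe u

variable {F : Type u} [Field F] [Fintype F] {m : ℕ}

/-- Reducing a conjugating automorphism to a similarity. -/
lemma conj_reduce (hΓ : gammaPOmega F (quadFormPlus m F) = ⊤) (x : MulAut (POmega F (quadFormPlus m F)))
    (α : MulAut (POmega F (quadFormPlus m F))) (σ : F ≃+* F) (c₀ : CO (quadFormPlus m F))
    (h : α * x * α⁻¹ = dl c₀ * fb (invAt_plus σ)) :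
    ∃ (B : CO (quadFormPlus m F)) (τ : F ≃+* F), dl B * x * (dl B)⁻¹ = dl (glB (invAt_plus τ) c₀) * fb (invAt_plus σ) := by
  have hcomm : ∀ a b : F ≃+* F, a * b = b * a := fun a b => Cfsg.Agent.Lib.AutPSL.ringAut_comm a b
  have hα : α ∈ gammaPOmega F (quadFormPlus m F) := by
    rw [hΓ]
    exact Subgroup.mem_top _
  obtain ⟨A, τ', hA, rfl⟩ := gs_range α hα
  rw [gs_eq_dl_fb (invAt_plus τ') hA] at h
  set A' : CO (quadFormPlus m F) := ⟨A, mem_CO_of_semisim_at (invAt_plus τ') hA⟩ with hA'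
  refine ⟨glB (invAt_plus τ'⁻¹) A', τ'⁻¹, ?_⟩
  have e0 : fb (invAt_plus (F := F) (m := m) τ'⁻¹) = (fb (invAt_plus τ'))⁻¹ := by
    rw [eq_inv_iff_mul_eq_one, fb_mul]
    have : τ'⁻¹ * τ' = 1 := inv_mul_cancel τ'
    have e := fb_one (f := quadFormPlus m F)
    rw [← e]
    congr 1
  have e1 : ∀ u : CO (quadFormPlus m F), dl (glB (invAt_plus τ'⁻¹) u) = (fb (invAt_plus τ'))⁻¹ * dl u * fb (invAt_plus τ') := by
    intro u
    rw [← conj_dl_fb, e0, inv_inv]
  have e4 : (fb (invAt_plus (F := F) (m := m) τ'))⁻¹ * fb (invAt_plus σ) * fb (invAt_plus τ') = fb (invAt_plus σ) := by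
    have : fb (invAt_plus (F := F) (m := m) σ) * fb (invAt_plus τ') = fb (invAt_plus τ') * fb (invAt_plus σ) := by
      rw [fb_mul, fb_mul]
      congr 1
      exact hcomm _ _
    rw [mul_assoc, this, inv_mul_cancel_left]
  rw [e1, e1]
  set U := dl A' * fb (invAt_plus τ') with hU
  set t := fb (invAt_plus (F := F) (m := m) τ') with ht
  have e3 : t⁻¹ * dl A' * t = t⁻¹ * U := by
    rw [hU, mul_assoc]
  rw [e3]
  calc t⁻¹ * U * x * (t⁻¹ * U)⁻¹ = t⁻¹ * (U * x * U⁻¹) * t := by group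
    _ = t⁻¹ * (dl c₀ * fb (invAt_plus σ)) * t := by rw [h]
    _ = t⁻¹ * dl c₀ * t * (t⁻¹ * fb (invAt_plus σ) * t) := by group
    _ = _ := by rw [e4]

/-- The standard form of a graph-field automorphism. -/
theorem normal_form_graph (hm : 3 ≤ m) (hΓ : gammaPOmega F (quadFormPlus m F) = ⊤)
    (x : MulAut (POmega F (quadFormPlus m F))) (hx : IsGraphFieldAutClassPOmegaPlus m x) :
    ∃ (σ : F ≃+* F) (B c : CO (quadFormPlus m F)) (y : Fin m ⊕ Fin m → F), σ ≠ RingEquiv.refl F ∧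
      dl B * x * (dl B)⁻¹ = dl c * fb (invAt_plus σ) ∧ qPlus m F y ≠ 0 ∧
      (∀ v, ((c : GL (Fin m ⊕ Fin m) F) : Matrix (Fin m ⊕ Fin m) (Fin m ⊕ Fin m) F) *ᵥ v = reflLin (qPlus m F) y v) ∧
      glMap σ (c : GL (Fin m ⊕ Fin m) F) = c := by
  classical
  have S := sys_plus (F := F) hm
  have hcomm : ∀ a b : F ≃+* F, a * b = b * a := fun a b => Cfsg.Agent.Lib.AutPSL.ringAut_comm a b
  obtain ⟨α, γ, φ, σ, v, r, hσ, hv, hvfix, hr, hγ, hφ, hconj'⟩ := hx
  rw [(isFieldAut_iff' (invAt_plus σ) φ).1 hφ] at hconj'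
  have hv' : qPlus m F v ≠ 0 := by
    rw [qPlus_apply]
    exact hv
  obtain ⟨R₀, hR₀⟩ := exists_refl_CO S hv'
  have hq : (quadFormPlus m F) = ⇑(qPlus m F) := funext fun w => (qPlus_apply m w).symm
  have hrR : r = (R₀ : GL (Fin m ⊕ Fin m) F) := by
    apply gl_ext_of_columns
    intro j
    rw [hR₀, hr, hq, Cfsg.Agent.Lib.OrthForm.reflectionMatrix_mulVec, reflLin_apply, QuadraticMap.polar_comm, div_eq_inv_mul]
  subst hrR
  have hγ' : γ = dl R₀ := (PgoPsi.induced_iff _ R₀ γ).1 hγ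
  obtain ⟨B, τ, hB⟩ := conj_reduce hΓ x α σ R₀ (by rw [← hγ']; exact hconj')
  refine ⟨σ, B, glB (invAt_plus τ) R₀, sv τ v, hσ, hB, ?_, glMap_reflLin S.hf (invAt_plus τ) hR₀, ?_⟩
  · rw [← S.hf]
    rw [invAt_plus τ v]
    exact (map_ne_zero τ).2 hv
  · change glMap σ (glMap τ _) = glMap τ _
    rw [← glMap_mul', hcomm σ τ, glMap_mul']
    congr 1
    apply gl_ext_of_columns
    intro j
    rw [glMap_reflLin S.hf (invAt_plus σ) hR₀, sv_eq_of_fixed hvfix, hR₀]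

/-- There is only one automorphism of order two of a finite field. -/
lemma ringAut_two_unique {σ τ : F ≃+* F} (h1 : orderOf σ = 2) (h2 : orderOf τ = 2) : σ = τ := by
  classical
  obtain ⟨p, hp⟩ := CharP.exists F
  have hpp : p.Prime := by
    rcases CharP.char_is_prime_or_zero F p with h | h
    · exact h
    · subst h
      exact absurd (CharP.charP_to_charZero F) (by
        intro h0
        exact absurd (Nat.cast_injective (R := F)) (not_injective_infinite_finite _))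
  haveI : Fact p.Prime := ⟨hpp⟩
  letI : Algebra (ZMod p) F := ZMod.algebra F p
  let φ : (F ≃ₐ[ZMod p] F) →* (F ≃+* F) :=
    { toFun := fun g => (g : F ≃+* F)
      map_one' := rfl
      map_mul' := fun a b => rfl }
  have hφ : Function.Surjective φ := by
    intro σ
    refine ⟨AlgEquiv.ofRingEquiv (f := σ) (by
      intro r
      have := RingHom.ext_zmod ((σ : F →+* F).comp (algebraMap (ZMod p) F)) (algebraMap (ZMod p) F)
      exact DFunLike.congr_fun this r), ?_⟩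
    ext x
    rfl
  haveI : IsCyclic (F ≃+* F) := isCyclic_of_surjective φ hφ
  haveI : Finite (F ≃+* F) := Finite.of_injective (fun e : F ≃+* F => (e : F → F)) DFunLike.coe_injective
  haveI : Fintype (F ≃+* F) := Fintype.ofFinite _
  have hc := IsCyclic.card_pow_eq_one_le (α := F ≃+* F) (n := 2) (by norm_num)
  by_contra hne
  have hσ1 : σ ≠ 1 := by
    rintro rfl
    simp at h1
  have hτ1 : τ ≠ 1 := by
    rintro rfl
    simp at h2
  have hsub : ({1, σ, τ} : Finset (F ≃+* F)) ⊆ Finset.univ.filter (fun a => a ^ 2 = 1) := by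
    intro a ha
    simp only [Finset.mem_insert, Finset.mem_singleton] at ha
    simp only [Finset.mem_filter, Finset.mem_univ, true_and]
    rcases ha with rfl | rfl | rfl
    · simp
    · rw [← h1]
      exact pow_orderOf_eq_one _
    · rw [← h2]
      exact pow_orderOf_eq_one _
  have h3 := Finset.card_le_card hsub
  have h4 : ({1, σ, τ} : Finset (F ≃+* F)).card = 3 := by
    rw [Finset.card_insert_of_notMem, Finset.card_insert_of_notMem, Finset.card_singleton]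
    · simpa using hne
    · simp only [Finset.mem_insert, Finset.mem_singleton, not_or]
      exact ⟨hσ1.symm, hτ1.symm⟩
  omega

/-- The square of a graph-field automorphism with rational reflection. -/
lemma sq_refl_fb (hm : 3 ≤ m) {σ : F ≃+* F} (hord : orderOf σ = 2) (R : CO (quadFormPlus m F)) {y : Fin m ⊕ Fin m → F} (hy : qPlus m F y ≠ 0)
    (hR : ∀ v, ((R : GL (Fin m ⊕ Fin m) F) : Matrix (Fin m ⊕ Fin m) (Fin m ⊕ Fin m) F) *ᵥ v = reflLin (qPlus m F) y v)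
    (hfix : glMap σ (R : GL (Fin m ⊕ Fin m) F) = R) : (dl R * fb (invAt_plus σ)) ^ 2 = 1 := by
  have S := sys_plus (F := F) hm
  have hRR : R * R = 1 := by
    apply Subtype.ext
    apply gl_ext_mulVec
    intro v
    change ((R : GL (Fin m ⊕ Fin m) F) * (R : GL (Fin m ⊕ Fin m) F) : GL (Fin m ⊕ Fin m) F).1 *ᵥ v = (1 : GL (Fin m ⊕ Fin m) F).1 *ᵥ v
    have h1 := congrArg (fun o : OG (qPlus m F) => (o : (Fin m ⊕ Fin m → F) ≃ₗ[F] (Fin m ⊕ Fin m → F)) v) (refl_sq S.hQ hy)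
    simp only [Subgroup.coe_mul, LinearEquiv.mul_apply, refl_apply, Subgroup.coe_one] at h1
    rw [Units.val_mul, ← Matrix.mulVec_mulVec, hR, hR, h1]
    simp
  have hg : glB (invAt_plus σ) R = R := Subtype.ext hfix
  have hf2 : fb (invAt_plus (F := F) (m := m) σ) * fb (invAt_plus σ) = 1 := by
    have := pow_orderOf_eq_one (fb (invAt_plus (F := F) (m := m) σ))
    rw [orderOf_fb S, hord, pow_two] at this
    exact this
  rw [pow_two, mul_assoc, ← mul_assoc (fb _), fb_mul_dl, hg, mul_assoc, hf2, mul_one, ← dl_mul, hRR, dl_one]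

/-- Every involutory graph-field automorphism is conjugate in the inner-diagonal group to a standard one. -/
theorem exists_conj_std (hm : 3 ≤ m) (hΓ : gammaPOmega F (quadFormPlus m F) = ⊤) {σ : F ≃+* F} (hord : orderOf σ = 2)
    (R : CO (quadFormPlus m F)) {y₀ : Fin m ⊕ Fin m → F} (hy₀ : qPlus m F y₀ ≠ 0)
    (hR : ∀ v, ((R : GL (Fin m ⊕ Fin m) F) : Matrix (Fin m ⊕ Fin m) (Fin m ⊕ Fin m) F) *ᵥ v = reflLin (qPlus m F) y₀ v)
    (hfix : glMap σ (R : GL (Fin m ⊕ Fin m) F) = R)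
    (x : MulAut (POmega F (quadFormPlus m F))) (hx : IsGraphFieldAutClassPOmegaPlus m x) (hx2 : orderOf x = 2) :
    ∃ u ∈ inndiagPOmegaPlus m F, x = u * (dl R * fb (invAt_plus σ)) * u⁻¹ := by
  classical
  have S := sys_plus (F := F) hm
  obtain ⟨τ, B, c, y, hτ, hB, hy, hc, hcfix⟩ := normal_form_graph hm hΓ x hx
  obtain ⟨χ, hχ, hχr⟩ := exists_chi_plus (F := F) m hm
  have hcx : (dl c * fb (invAt_plus τ)) ^ 2 = 1 := by
    rw [← hB, conj_pow, ← hx2, pow_orderOf_eq_one, mul_one, mul_inv_cancel]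
  have hordτ : orderOf τ = 2 := order_sigma hm hτ c Nat.prime_two hcx
  obtain rfl : τ = σ := ringAut_two_unique hordτ hord
  have hRx := sq_refl_fb hm hord R hy₀ hR hfix
  have hχc : χ c = Multiplicative.ofAdd 1 := hχr c y hy hc
  have hχR : χ R = Multiplicative.ofAdd 1 := hχr R y₀ hy₀ hR
  obtain ⟨H, hH⟩ := coset_plus hm χ hχ hχr (invAt_plus τ) (by norm_num) hord R c hRx hcx (hχR.trans hχc.symm)
  have hcommR : Commute (dl R) (dl R * fb (invAt_plus τ)) :=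
    (Commute.refl _).mul_right (commute_dl_fb_of_fixed _ S R hfix)
  have hcases : ∀ a : Multiplicative (ZMod 2), a = 1 ∨ a * Multiplicative.ofAdd 1 = 1 := by decide
  have hxe : x = dl (B⁻¹ * H) * (dl R * fb (invAt_plus τ)) * (dl (B⁻¹ * H))⁻¹ := by
    rw [dl_mul, dl_inv]
    have h3 : x = (dl B)⁻¹ * (dl B * x * (dl B)⁻¹) * dl B := by group
    rw [hB, hH] at h3
    rw [h3]
    group
  rcases hcases (χ (B⁻¹ * H)) with h1 | h1
  · refine ⟨dl (B⁻¹ * H), ?_, hxe⟩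
    rw [inndiag_plus_eq m hm χ hχ]
    exact ⟨_, h1, rfl⟩
  · refine ⟨dl (B⁻¹ * H * R), ?_, ?_⟩
    · rw [inndiag_plus_eq m hm χ hχ]
      refine ⟨_, ?_, rfl⟩
      change χ (B⁻¹ * H * R) = 1
      rw [map_mul, hχR]
      exact h1
    · rw [hxe, dl_mul (B⁻¹ * H) R]
      have h2 : dl R * (dl R * fb (invAt_plus τ)) * (dl R)⁻¹ = dl R * fb (invAt_plus τ) := by
        rw [hcommR.eq, mul_inv_cancel_right]
      calc dl (B⁻¹ * H) * (dl R * fb (invAt_plus τ)) * (dl (B⁻¹ * H))⁻¹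
          = dl (B⁻¹ * H) * (dl R * (dl R * fb (invAt_plus τ)) * (dl R)⁻¹) * (dl (B⁻¹ * H))⁻¹ := by rw [h2]
        _ = _ := by group

end normal

end Cfsg.Agent.Lib.AutPOm
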