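import Cfsg.Agent.Lib.AutPOm.CountMinus
import Cfsg.Agent.Lib.OrthForm

/-!
# The Lang step for the plus form
-/

set_option autoImplicit false
set_option linter.unusedSectionVars false
set_option linter.unusedSimpArgs false
set_option linter.unusedVariables false

namespace Cfsg.Agent.Lib.AutPOm

open Module QuadraticMap Cfsg.Agent.Lib.OrthoBasic Cfsg.Agent.Lib.OrthoSiegel Cfsg.Agent.Lib.OrthoGen
  Cfsg.Agent.Lib.OrthoFinal Cfsg.Agent.Lib.PgoPsi Cfsg.Agent.Lib.PgoGroup Cfsg.Agent.Lib.GammaCount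
  Cfsg.Agent.Lib.Hilbert90 Cfsg.Agent.Lib.QuadFF Cfsg.Agent.Lib.QuadClass Cfsg.Agent.Lib.OrthoCount
  Cfsg.Agent.Lib.PgoParity Cfsg.Agent.Lib.PgoClass Cfsg.Agent.Lib.OrthoChar
open Cfsg Matrix

variable {ι : Type} [Fintype ι] [DecidableEq ι] {F : Type*} [Field F]

section basics

lemma gl_ext_of_columns {A B : GL ι F} (h : ∀ j, (A : Matrix ι ι F) *ᵥ Pi.single j 1 = (B : Matrix ι ι F) *ᵥ Pi.single j 1) : A = B := by
  apply Units.ext
  ext i j
  have := congrFun (h j) i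
  simpa using this

lemma sv_single (σ : F ≃+* F) (j : ι) : sv σ (Pi.single j 1 : ι → F) = Pi.single j 1 := by
  funext i
  simp only [sv, Pi.single_apply]
  split_ifs <;> simp

lemma glMap_column (σ : F ≃+* F) (T : GL ι F) (j : ι) :
    ((glMap σ T : GL ι F) : Matrix ι ι F) *ᵥ Pi.single j 1 = sv σ ((T : Matrix ι ι F) *ᵥ Pi.single j 1) := by
  rw [sv_mulVec, sv_single]
  rfl

lemma sv_add' (σ : F ≃+* F) (x y : ι → F) : sv σ (x + y) = sv σ x + sv σ y := by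
  funext i
  simp [sv]

lemma sv_smul' (σ : F ≃+* F) (c : F) (x : ι → F) : sv σ (c • x) = σ c • sv σ x := by
  funext i
  simp [sv]

variable {σ : F ≃+* F}

/-- The base change of a rational basis. -/
lemma exists_basis_emb {κ : Type*} [Fintype κ] [DecidableEq κ] (b' : Basis κ (fixedF σ) (ι → fixedF σ)) :
    ∃ bF : Basis κ F (ι → F), ∀ x, bF x = emb σ (b' x) := by
  classical
  have hcard : Fintype.card ι = Fintype.card κ := by
    have h1 := Module.finrank_eq_card_basis b'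
    simpa using h1
  let E : ι ≃ κ := Fintype.equivOfCardEq hcard
  let L : (ι → fixedF σ) ≃ₗ[fixedF σ] (ι → fixedF σ) := (b'.reindex E.symm).equivFun.symm
  let P : GL ι (fixedF σ) := glOf L
  have hP : ∀ i, (P : Matrix ι ι (fixedF σ)) *ᵥ Pi.single i 1 = b' (E i) := by
    intro i
    rw [glOf_mulVec]
    simp [L, Module.Basis.equivFun_symm_apply, Finset.sum_ite_eq', Pi.single_apply]
  refine ⟨((Pi.basisFun F ι).map (glEquiv (glEmb σ P))).reindex E, fun x => ?_⟩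
  rw [Module.Basis.reindex_apply, Module.Basis.map_apply, Pi.basisFun_apply]
  change (glEmb σ P : GL ι F).1 *ᵥ Pi.single (E.symm x) 1 = _
  have h2 : (Pi.single (E.symm x) 1 : ι → F) = emb σ (Pi.single (E.symm x) 1) := by
    funext i
    simp only [emb, Pi.single_apply]
    split_ifs <;> simp
  rw [h2, ← emb_glEmb, hP, Equiv.apply_symm_apply]

/-- A hyperbolic family as the columns of a matrix. -/
lemma exists_T {K : Type*} [Field K] [Fintype K] {m : ℕ} {Q₂ : QuadraticForm K (Fin m ⊕ Fin m → K)} {u w : Fin m → (Fin m ⊕ Fin m → K)}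
    [Nonempty (Fin m)] (H : HypData Q₂ u w) (hw : ∀ i, Q₂ (w i) = 0) (hww : ∀ i j, polar Q₂ (w i) (w j) = 0) :
    ∃ T : GL (Fin m ⊕ Fin m) K, (∀ i, (T : Matrix (Fin m ⊕ Fin m) (Fin m ⊕ Fin m) K) *ᵥ Pi.single (.inl i) 1 = u i) ∧
      (∀ i, (T : Matrix (Fin m ⊕ Fin m) (Fin m ⊕ Fin m) K) *ᵥ Pi.single (.inr i) 1 = w i) ∧
      ∀ v, Q₂ ((T : Matrix (Fin m ⊕ Fin m) (Fin m ⊕ Fin m) K) *ᵥ v) = qPlus m K v := by
  classical
  let L : (Fin m ⊕ Fin m → K) ≃ₗ[K] (Fin m ⊕ Fin m → K) := H.basis.equivFun.symm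
  have hL : ∀ j, L (Pi.single j 1) = H.basis j := by
    intro j
    simp [L, Module.Basis.equivFun_symm_apply, Finset.sum_ite_eq', Pi.single_apply]
  have hT : ∀ j, (glOf L : Matrix (Fin m ⊕ Fin m) (Fin m ⊕ Fin m) K) *ᵥ Pi.single j 1 = H.basis j := by
    intro j
    rw [glOf_mulVec, hL]
  refine ⟨glOf L, fun i => ?_, fun i => ?_, fun v => ?_⟩
  · rw [hT, H.basis_inl]
  · rw [hT, H.basis_inr]
  · rw [glOf_mulVec]
    let T' : (Fin m ⊕ Fin m → K) →ₗ[K] (Fin m ⊕ Fin m → K) := L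
    have hform : ∀ x, (Q₂.comp T') x = qPlus m K x := by
      apply eq_on_basis (Pi.basisFun K (Fin m ⊕ Fin m))
      · intro i
        rw [Pi.basisFun_apply, QuadraticMap.comp_apply]
        change Q₂ (L (Pi.single i 1)) = _
        rw [hL, qPlus_apply]
        rcases i with i | i
        · rw [H.basis_inl, H.Qu]
          simp [quadFormPlus]
        · rw [H.basis_inr, hw]
          simp [quadFormPlus]
      · intro i j
        rw [Pi.basisFun_apply, Pi.basisFun_apply]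
        have e1 : polar (Q₂.comp T') (Pi.single i 1) (Pi.single j 1) = polar Q₂ (H.basis i) (H.basis j) := by
          rw [← hL, ← hL]
          simp only [polar, QuadraticMap.comp_apply, map_add]
          rfl
        rw [e1, polar_qPlus]
        rcases i with i | i <;> rcases j with j | j
        · rw [H.basis_inl, H.basis_inl, H.uu]
          simp
        · rw [H.basis_inl, H.basis_inr, H.uw]
          simp [Pi.single_apply]
          exact if_congr eq_comm rfl rfl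
        · rw [H.basis_inr, H.basis_inl, QuadraticMap.polar_comm, H.uw]
          simp [Pi.single_apply, eq_comm]
        · rw [H.basis_inr, H.basis_inr, hww]
          simp
    exact hform v

end basics

section lang

variable [Fintype F] {σ : F ≃+* F} {k : ℕ}

/-- The branch of the Lang step in which the descended form has minus type. -/
theorem plus_minus_case {S : Sys (quadFormPlus (k + 1) F) (qPlus (k + 1) F)} {g h : GL (Fin (k + 1) ⊕ Fin (k + 1)) F} {d e : Fˣ}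
    (he : g * glMap σ h = sc d * h) (hinv₂ : ∀ v, Q2 (qPlus (k + 1) F) h e (sv σ v) = σ (Q2 (qPlus (k + 1) F) h e v))
    {b' : Basis ((Fin k ⊕ Fin k) ⊕ Fin 2) (fixedF σ) (Fin (k + 1) ⊕ Fin (k + 1) → fixedF σ)} {ζ : fixedF σ}
    (hb' : IsMinusBasis (descQ σ (Q2 (qPlus (k + 1) F) h e) hinv₂) b' ζ) :
    ∃ (u R : CO (quadFormPlus (k + 1) F)) (x : Fin (k + 1) ⊕ Fin (k + 1) → F), qPlus (k + 1) F x ≠ 0 ∧
      (∀ v, ((R : GL (Fin (k + 1) ⊕ Fin (k + 1)) F) : Matrix (Fin (k + 1) ⊕ Fin (k + 1)) (Fin (k + 1) ⊕ Fin (k + 1)) F) *ᵥ v = reflLin (qPlus (k + 1) F) x v) ∧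
      g * glMap σ (u : GL (Fin (k + 1) ⊕ Fin (k + 1)) F) = sc d * ((R : GL (Fin (k + 1) ⊕ Fin (k + 1)) F) * (u : GL (Fin (k + 1) ⊕ Fin (k + 1)) F)) := by
  classical
  set q := qPlus (k + 1) F with hq
  set Q₂ := Q2 q h e with hQ₂
  set Q₀ := descQ σ Q₂ hinv₂ with hQ₀
  have hND := ND_Q2 S.hQ h e
  let B : (Fin k ⊕ Fin k) ⊕ Fin 2 → (Fin (k + 1) ⊕ Fin (k + 1) → F) := fun x => emb σ (b' x)
  have hBQ : ∀ x, Q₂ (B x) = ((Q₀ (b' x) : fixedF σ) : F) := fun x => rfl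
  have hBP : ∀ x y, polar Q₂ (B x) (B y) = ((polar Q₀ (b' x) (b' y) : fixedF σ) : F) := fun x y => rfl
  obtain ⟨hζ, h2, h3, h4, h5, h6, h7, h8⟩ := hb'
  have hζF : ∀ x : fixedF σ, σ (x : F) = x := fun x => x.2
  set ζF : F := ((ζ : fixedF σ) : F) with hζFd
  have hB1 : ∀ i, Q₂ (B (.inl (.inl i))) = 0 ∧ Q₂ (B (.inl (.inr i))) = 0 := by
    intro i
    rw [hBQ, hBQ, (h2 i).1, (h2 i).2]
    exact ⟨rfl, rfl⟩
  have hB2 : ∀ i j, polar Q₂ (B (.inl (.inl i))) (B (.inl (.inr j))) = if i = j then 1 else 0 := by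
    intro i j
    rw [hBP, h3]
    split_ifs <;> rfl
  have hB3 : ∀ i j, polar Q₂ (B (.inl (.inl i))) (B (.inl (.inl j))) = 0 ∧ polar Q₂ (B (.inl (.inr i))) (B (.inl (.inr j))) = 0 := by
    intro i j
    rw [hBP, hBP, (h4 i j).1, (h4 i j).2]
    exact ⟨rfl, rfl⟩
  have hB4 : ∀ i t, polar Q₂ (B (.inl (.inl i))) (B (.inr t)) = 0 ∧ polar Q₂ (B (.inl (.inr i))) (B (.inr t)) = 0 := by
    intro i t
    rw [hBP, hBP, (h5 i t).1, (h5 i t).2]
    exact ⟨rfl, rfl⟩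
  have hB5 : Q₂ (B (.inr 0)) = 1 := by
    rw [hBQ, h6]
    rfl
  have hB6 : polar Q₂ (B (.inr 0)) (B (.inr 1)) = 1 := by
    rw [hBP, h7]
    rfl
  have hB7 : Q₂ (B (.inr 1)) = ζF := by
    rw [hBQ, h8]
  obtain ⟨bF, hbF⟩ := exists_basis_emb b'
  -- a root of the binary form
  obtain ⟨ρ, hρ⟩ : ∃ ρ : F, ρ ^ 2 + ρ + ζF = 0 := by
    by_contra hno
    push Not at hno
    have hmin : IsMinusBasis Q₂ bF ζF := by
      refine ⟨hno, ?_, ?_, ?_, ?_, ?_, ?_, ?_⟩ <;> simp only [hbF] <;> first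
        | exact hB1
        | exact hB2
        | exact hB3
        | exact hB4
        | exact hB5
        | exact hB6
        | exact hB7
    have hts := Cfsg.Agent.Lib.QuadClass2.finrank_le_of_minus hND hmin
      ((Cfsg.Agent.Lib.QuadClass2.L0 (k + 1) F).map ((glEquiv h⁻¹ : (Fin (k + 1) ⊕ Fin (k + 1) → F) ≃ₗ[F] _) : (Fin (k + 1) ⊕ Fin (k + 1) → F) →ₗ[F] _)) (by
        rintro _ ⟨y, hy, rfl⟩
        rw [Q2_apply]
        have e1 : (h : Matrix (Fin (k + 1) ⊕ Fin (k + 1)) (Fin (k + 1) ⊕ Fin (k + 1)) F) *ᵥ (((h⁻¹ : GL (Fin (k + 1) ⊕ Fin (k + 1)) F) : Matrix (Fin (k + 1) ⊕ Fin (k + 1)) (Fin (k + 1) ⊕ Fin (k + 1)) F) *ᵥ y) = y := by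
          rw [Matrix.mulVec_mulVec, ← Units.val_mul, mul_inv_cancel, Units.val_one, Matrix.one_mulVec]
        change (e : F) * q ((h : Matrix (Fin (k + 1) ⊕ Fin (k + 1)) (Fin (k + 1) ⊕ Fin (k + 1)) F) *ᵥ (((h⁻¹ : GL (Fin (k + 1) ⊕ Fin (k + 1)) F) : Matrix (Fin (k + 1) ⊕ Fin (k + 1)) (Fin (k + 1) ⊕ Fin (k + 1)) F) *ᵥ y)) = 0
        rw [e1, hq, Cfsg.Agent.Lib.QuadClass2.qPlus_L0 hy, mul_zero])
    rw [LinearEquiv.finrank_map_eq, Cfsg.Agent.Lib.QuadClass2.finrank_L0] at hts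
    omega
  -- the second root
  set ρ' : F := -1 - ρ with hρ'
  have hρ'root : ρ' ^ 2 + ρ' + ζF = 0 := by
    rw [hρ']
    linear_combination hρ
  have hσρ : σ ρ = ρ' := by
    have h1 : (σ ρ) ^ 2 + σ ρ + ζF = 0 := by
      have := congrArg σ hρ
      rw [map_add, map_add, map_pow, map_zero, hζFd, hζF] at this
      exact this
    have h9 : (σ ρ - ρ) * (σ ρ - ρ') = 0 := by
      rw [hρ']
      linear_combination h1 - hρ
    rcases mul_eq_zero.1 h9 with h10 | h10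
    · exfalso
      have hfix : σ ρ = ρ := sub_eq_zero.1 h10
      apply hζ ⟨ρ, hfix⟩
      apply Subtype.ext
      exact hρ
    · exact sub_eq_zero.1 h10
  have hσρ' : σ ρ' = ρ := by
    rw [hρ', map_sub, map_neg, map_one, hσρ, hρ']
    ring
  set κ : F := 4 * ζF - 1 with hκ
  have hκσ : σ κ = κ := by
    rw [hκ, map_sub, map_mul, map_one, map_ofNat, hζF]
  have hκ0 : κ ≠ 0 := by
    have h10 := disc_ne_of_aniso (Cfsg.Agent.Lib.QuadClass2.ani_of_zeta hζ)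
    intro h11
    apply h10
    apply Subtype.ext
    change 4 * ζF - 1 ^ 2 = 0
    rw [hκ] at h11
    linear_combination h11
  set B₀ := B (.inr 0) with hB₀
  set B₁ := B (.inr 1) with hB₁
  have hfixB : ∀ x, sv σ (B x) = B x := fun x => sv_emb σ _
  have hP00 : polar Q₂ B₀ B₀ = 2 := by
    rw [polar_self', hB5]
    ring
  have hP11 : polar Q₂ B₁ B₁ = 2 * ζF := by
    rw [polar_self', hB7]
  have hP10 : polar Q₂ B₁ B₀ = 1 := by
    rw [QuadraticMap.polar_comm, hB6]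
  -- the values
  have hQs : ∀ t : F, Q₂ (t • B₀ + B₁) = t ^ 2 + t + ζF := by
    intro t
    rw [Q_add, Q_smul, hB5, polar_smul_l, hB6, hB7]
    ring
  have hPs : ∀ s t : F, polar Q₂ (s • B₀ + B₁) (t • B₀ + B₁) = 2 * s * t + s + t + 2 * ζF := by
    intro s t
    rw [polar_add_left, polar_add_right, polar_add_right, polar_smul_l, polar_smul_l, polar_smul_r, polar_smul_r,
      hP00, hB6, hP10, hP11]
    ring
  have hPB : ∀ t : F, polar Q₂ (t • B₀ + B₁) B₀ = 2 * t + 1 := by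
    intro t
    rw [polar_add_left, polar_smul_l, hP00, hP10]
    ring
  have hP1 : ∀ (i) (t : F), polar Q₂ (B (.inl (.inl i))) (t • B₀ + B₁) = 0 := by
    intro i t
    rw [polar_add_right, polar_smul_r, (hB4 i 0).1, (hB4 i 1).1]
    ring
  have hP2 : ∀ (i) (t : F), polar Q₂ (B (.inl (.inr i))) (t • B₀ + B₁) = 0 := by
    intro i t
    rw [polar_add_right, polar_smul_r, (hB4 i 0).2, (hB4 i 1).2]
    ring
  set s₁ := ρ • B₀ + B₁ with hs₁
  set s₂ := ρ' • B₀ + B₁ with hs₂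
  have hsv1 : sv σ s₁ = s₂ := by
    rw [hs₁, hs₂, sv_add', sv_smul', hfixB, hfixB, hσρ]
  have hsv2 : sv σ s₂ = s₁ := by
    rw [hs₁, hs₂, sv_add', sv_smul', hfixB, hfixB, hσρ']
  have hQs₁ : Q₂ s₁ = 0 := by
    rw [hs₁, hQs, hρ]
  have hQs₂ : Q₂ s₂ = 0 := by
    rw [hs₂, hQs, hρ'root]
  have hPs₁₁ : polar Q₂ s₁ s₁ = 0 := by
    rw [polar_self', hQs₁]
    ring
  have hPs₂₂ : polar Q₂ s₂ s₂ = 0 := by
    rw [polar_self', hQs₂]
    ring
  have hPs₁₂ : polar Q₂ s₁ s₂ = κ := by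
    rw [hs₁, hs₂, hPs, hρ', hκ]
    linear_combination (-2 : F) * hρ
  -- the hyperbolic family
  let uu : Fin (k + 1) → (Fin (k + 1) ⊕ Fin (k + 1) → F) := Fin.lastCases s₁ (fun i => B (.inl (.inl i)))
  let ww : Fin (k + 1) → (Fin (k + 1) ⊕ Fin (k + 1) → F) := Fin.lastCases (κ⁻¹ • s₂) (fun i => B (.inl (.inr i)))
  have huL : uu (Fin.last k) = s₁ := Fin.lastCases_last
  have huC : ∀ i : Fin k, uu i.castSucc = B (.inl (.inl i)) := fun i => Fin.lastCases_castSucc _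
  have hwL : ww (Fin.last k) = κ⁻¹ • s₂ := Fin.lastCases_last
  have hwC : ∀ i : Fin k, ww i.castSucc = B (.inl (.inr i)) := fun i => Fin.lastCases_castSucc _
  have H : HypData Q₂ uu ww := by
    refine ⟨fun i => ?_, fun i j => ?_, fun i j => ?_, ?_⟩
    · induction i using Fin.lastCases with
      | last => rw [huL, hQs₁]
      | cast i => rw [huC, (hB1 i).1]
    · induction i using Fin.lastCases with
      | last =>
        induction j using Fin.lastCases with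
        | last => rw [huL, hPs₁₁]
        | cast j => rw [huL, huC, QuadraticMap.polar_comm, hP1]
      | cast i =>
        induction j using Fin.lastCases with
        | last => rw [huL, huC, hP1]
        | cast j => rw [huC, huC, (hB3 i j).1]
    · induction i using Fin.lastCases with
      | last =>
        induction j using Fin.lastCases with
        | last =>
          rw [huL, hwL, polar_smul_r, hPs₁₂, if_pos rfl, inv_mul_cancel₀ hκ0]
        | cast j =>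
          rw [huL, hwC, QuadraticMap.polar_comm, hP2, if_neg (Fin.castSucc_lt_last j).ne']
      | cast i =>
        induction j using Fin.lastCases with
        | last =>
          rw [huC, hwL, polar_smul_r, hs₂, hP1, mul_zero, if_neg (Fin.castSucc_lt_last i).ne]
        | cast j =>
          rw [huC, hwC, hB2]
          simp only [Fin.castSucc_inj]
    · simp
      ring
  have hww1 : ∀ i, Q₂ (ww i) = 0 := by
    intro i
    induction i using Fin.lastCases with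
    | last => rw [hwL, Q_smul, hQs₂, mul_zero]
    | cast i => rw [hwC, (hB1 i).2]
  have hww2 : ∀ i j, polar Q₂ (ww i) (ww j) = 0 := by
    intro i j
    induction i using Fin.lastCases with
    | last =>
      induction j using Fin.lastCases with
      | last => rw [hwL, polar_smul_l, polar_smul_r, hPs₂₂]; ring
      | cast j => rw [hwL, hwC, QuadraticMap.polar_comm, polar_smul_r, hs₂, hP2, mul_zero]
    | cast i =>
      induction j using Fin.lastCases with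
      | last => rw [hwL, hwC, polar_smul_r, hs₂, hP2, mul_zero]
      | cast j => rw [hwC, hwC, (hB3 i j).2]
  haveI : Nonempty (Fin (k + 1)) := ⟨0⟩
  obtain ⟨T, hT1, hT2, hT3⟩ := exists_T H hww1 hww2
  -- the similarity
  have hmemCO : h * T ∈ CO (quadFormPlus (k + 1) F) := by
    refine ⟨e⁻¹, fun v => ?_⟩
    have h1 := hT3 v
    rw [hQ₂, Q2_apply] at h1
    rw [S.hf, S.hf, Units.val_mul, ← Matrix.mulVec_mulVec]
    rw [Units.val_inv_eq_inv_val, ← h1]
    field_simp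
  -- the reflection
  have hxne : q ((h : Matrix (Fin (k + 1) ⊕ Fin (k + 1)) (Fin (k + 1) ⊕ Fin (k + 1)) F) *ᵥ B₀) ≠ 0 := by
    intro h0
    have h1 := hB5
    rw [hQ₂, Q2_apply, h0, mul_zero] at h1
    exact zero_ne_one h1
  have hqe : (e : F) * q ((h : Matrix (Fin (k + 1) ⊕ Fin (k + 1)) (Fin (k + 1) ⊕ Fin (k + 1)) F) *ᵥ B₀) = 1 := hB5
  obtain ⟨R, hR⟩ := exists_refl_CO S hxne
  -- the action on rational columns
  have hstep : ∀ t, sv σ t = t - (polar Q₂ t B₀) • B₀ → (h : Matrix (Fin (k + 1) ⊕ Fin (k + 1)) (Fin (k + 1) ⊕ Fin (k + 1)) F) *ᵥ sv σ t = ((R : GL (Fin (k + 1) ⊕ Fin (k + 1)) F) : Matrix (Fin (k + 1) ⊕ Fin (k + 1)) (Fin (k + 1) ⊕ Fin (k + 1)) F) *ᵥ ((h : Matrix (Fin (k + 1) ⊕ Fin (k + 1)) (Fin (k + 1) ⊕ Fin (k + 1)) F) *ᵥ t) := by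
    intro t ht
    rw [hR, reflLin_apply, ht, Matrix.mulVec_sub, Matrix.mulVec_smul]
    congr 2
    rw [hQ₂, polar_Q2]
    rw [div_eq_mul_inv]
    have h9 : (q ((h : Matrix (Fin (k + 1) ⊕ Fin (k + 1)) (Fin (k + 1) ⊕ Fin (k + 1)) F) *ᵥ B₀))⁻¹ = (e : F) := by
      rw [inv_eq_iff_eq_inv]
      exact eq_inv_of_mul_eq_one_left (by rw [mul_comm]; exact hqe)
    rw [h9]
    ring
  have hcols : (h * glMap σ T : GL (Fin (k + 1) ⊕ Fin (k + 1)) F) = (R : GL (Fin (k + 1) ⊕ Fin (k + 1)) F) * (h * T) := by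
    apply gl_ext_of_columns
    intro j
    rw [Units.val_mul, ← Matrix.mulVec_mulVec, glMap_column, Units.val_mul, ← Matrix.mulVec_mulVec, Units.val_mul,
      ← Matrix.mulVec_mulVec]
    apply hstep
    rcases j with i | i
    · rw [hT1]
      induction i using Fin.lastCases with
      | last =>
        rw [huL, hsv1, hs₁, hPB, hs₂, hρ']
        module
      | cast i =>
        rw [huC, (hB4 i 0).1, zero_smul, sub_zero, hfixB]
    · rw [hT2]
      induction i using Fin.lastCases with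
      | last =>
        rw [hwL, sv_smul', hsv2, polar_smul_l, hs₂, hPB, map_inv₀, hκσ, hs₁, hρ']
        module
      | cast i =>
        rw [hwC, (hB4 i 0).2, zero_smul, sub_zero, hfixB]
  refine ⟨⟨h * T, hmemCO⟩, R, _, hxne, hR, ?_⟩
  change g * glMap σ (h * T) = sc d * ((R : GL (Fin (k + 1) ⊕ Fin (k + 1)) F) * (h * T))
  rw [map_mul, ← mul_assoc, he, mul_assoc, hcols]

end lang

section chi

variable [Fintype F] {m : ℕ} {σ : F ≃+* F}

lemma mul2_eq_of_iff {a b : Multiplicative (ZMod 2)} (h : a = 1 ↔ b = 1) : a = b := by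
  revert a b
  decide

/-- The class homomorphism does not change under field automorphisms. -/
theorem chi_glB (hm : 3 ≤ m) (χ : CO (quadFormPlus m F) →* Multiplicative (ZMod 2))
    (hχ : ∀ g : CO (quadFormPlus m F), χ g = 1 ↔ PreservesSingularClasses (quadFormPlus m F) ((g : GL (Fin m ⊕ Fin m) F) : Matrix (Fin m ⊕ Fin m) (Fin m ⊕ Fin m) F))
    (hχr : ∀ (g : CO (quadFormPlus m F)) (x : Fin m ⊕ Fin m → F), qPlus m F x ≠ 0 →
        (∀ v, ((g : GL (Fin m ⊕ Fin m) F) : Matrix (Fin m ⊕ Fin m) (Fin m ⊕ Fin m) F).mulVec v = reflLin (qPlus m F) x v) →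
        χ g = Multiplicative.ofAdd 1) (hI : InvAt (quadFormPlus m F) σ) (u : CO (quadFormPlus m F)) :
    χ (glB hI u) = χ u := by
  apply mul2_eq_of_iff
  rcases Nat.even_or_odd (Fintype.card F) with hq | hodd
  · have S := sys_plus (F := F) hm
    have key := char2_main hq S χ hχr (fun c => by rw [hχ]; exact preserves_scalar _ c)
    rw [key, key, ← conj_dl_fb hI u]
    constructor
    · intro h
      have h1 := conj_Inn_mem (fb hI)⁻¹ _ h
      have e : (fb hI)⁻¹ * (fb hI * dl u * (fb hI)⁻¹) * ((fb hI)⁻¹)⁻¹ = dl u := by group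
      rwa [e] at h1
    · intro h
      exact conj_Inn_mem _ _ h
  · have h2 : (2 : F) ≠ 0 := Cfsg.Agent.Lib.OrthoChar.char_ne_two_of_odd hodd
    obtain ⟨c, hc⟩ := u.2
    have hc' : ∀ v, quadFormPlus m F (((glB hI u : CO _) : GL (Fin m ⊕ Fin m) F).1 *ᵥ v) = (σ (c : F)) * quadFormPlus m F v := by
      intro v
      have h1 := hI ((u : GL (Fin m ⊕ Fin m) F).1 *ᵥ sv σ.symm v)
      rw [sv_mulVec, sv_symm', hc, map_mul, ← hI, sv_symm'] at h1
      exact h1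
    rw [hχ, hχ, preserves_plus_iff h2 m (by omega) _ (c := σ (c : F)) ((map_ne_zero σ).2 c.ne_zero) hc',
      preserves_plus_iff h2 m (by omega) _ (c := (c : F)) c.ne_zero hc]
    have hdet : ((glB hI u : CO _) : GL (Fin m ⊕ Fin m) F).1.det = σ ((u : GL (Fin m ⊕ Fin m) F).1.det) :=
      (RingHom.map_det (σ : F →+* F) _).symm
    rw [hdet, ← map_pow]
    exact σ.injective.eq_iff

/-- The type of the descended form is given by the class of the similarity. -/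
theorem lang_type (hm : 3 ≤ m) (χ : CO (quadFormPlus m F) →* Multiplicative (ZMod 2))
    (hχ : ∀ g : CO (quadFormPlus m F), χ g = 1 ↔ PreservesSingularClasses (quadFormPlus m F) ((g : GL (Fin m ⊕ Fin m) F) : Matrix (Fin m ⊕ Fin m) (Fin m ⊕ Fin m) F))
    (hχr : ∀ (g : CO (quadFormPlus m F)) (x : Fin m ⊕ Fin m → F), qPlus m F x ≠ 0 →
        (∀ v, ((g : GL (Fin m ⊕ Fin m) F) : Matrix (Fin m ⊕ Fin m) (Fin m ⊕ Fin m) F).mulVec v = reflLin (qPlus m F) x v) →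
        χ g = Multiplicative.ofAdd 1) (hI : InvAt (quadFormPlus m F) σ) {r : ℕ} (hr : 0 < r) (hord : orderOf σ = r)
    (g : CO (quadFormPlus m F)) (hy : (dl g * fb hI) ^ r = 1) :
    ∃ (h : GL (Fin m ⊕ Fin m) F) (d e : Fˣ) (hinv₂ : ∀ v, Q2 (qPlus m F) h e (sv σ v) = σ (Q2 (qPlus m F) h e v)),
      (g : GL (Fin m ⊕ Fin m) F) * glMap σ h = sc d * h ∧
      (((∃ b' : Basis (Fin m ⊕ Fin m) (fixedF σ) (Fin m ⊕ Fin m → fixedF σ), IsHypBasis (descQ σ (Q2 (qPlus m F) h e) hinv₂) b') ∧ χ g = 1) ∨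
       ((∃ (k : ℕ) (_ : m = k + 1) (b' : Basis ((Fin k ⊕ Fin k) ⊕ Fin 2) (fixedF σ) (Fin m ⊕ Fin m → fixedF σ)) (ζ : fixedF σ),
          IsMinusBasis (descQ σ (Q2 (qPlus m F) h e) hinv₂) b' ζ) ∧ χ g = Multiplicative.ofAdd 1)) := by
  classical
  have S := sys_plus (F := F) hm
  have hsc : ∀ c, χ (scO S c) = 1 := fun c => by rw [hχ]; exact preserves_scalar _ c
  rw [dl_mul_fb hI g] at hy
  obtain ⟨h, d, e, he, hinv⟩ := lang_core S hr hord hI (semisim_dl_fb hI g) hy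
  have hinv₂ := Q2_inv_of S.hf hinv
  refine ⟨h, d, e, hinv₂, he, ?_⟩
  have hnd := ND_descQ σ _ hinv₂ (ND_Q2 S.hQ h e)
  haveI : Fintype (fixedF σ) := Fintype.ofFinite _
  have hV : finrank (fixedF σ) (Fin m ⊕ Fin m → fixedF σ) = 2 * m := by
    simp
    ring
  have hqK : ∀ v : Fin m ⊕ Fin m → fixedF σ, qPlus m F (emb σ v) = (quadFormPlus m (fixedF σ) v : F) := by
    intro v
    rw [qPlus_apply]
    simp [quadFormPlus, emb]
  rcases std_cases hV _ hnd with ⟨b', hb'⟩ | ⟨k, hk, b', ζ, hb'⟩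
  · left
    refine ⟨⟨b', hb'⟩, ?_⟩
    obtain ⟨T, hT⟩ := iso_qPlus_of_hyp hb'
    have hP : ∀ v, descQ σ (Q2 (qPlus m F) h e) hinv₂ (((glOf T.symm : GL (Fin m ⊕ Fin m) (fixedF σ)) : Matrix (Fin m ⊕ Fin m) (Fin m ⊕ Fin m) (fixedF σ)) *ᵥ v)
        = ((1 : (fixedF σ)ˣ) : fixedF σ) * quadFormPlus m (fixedF σ) v := by
      intro v
      rw [glOf_mulVec, ← hT, LinearEquiv.apply_symm_apply, Units.val_one, one_mul, qPlus_apply]
    have hmem := co_of_desc S.hf hinv₂ (quadFormPlus m (fixedF σ)) hqK _ 1 hP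
    set u : CO (quadFormPlus m F) := ⟨_, hmem⟩ with hu
    have e1 : g * glB hI u = scO S d * u := by
      apply Subtype.ext
      change (g : GL (Fin m ⊕ Fin m) F) * glMap σ (h * glEmb σ (glOf T.symm)) = sc d * (h * glEmb σ (glOf T.symm))
      rw [map_mul, glMap_glEmb, ← mul_assoc, he, mul_assoc]
    have e2 := congrArg χ e1
    rw [map_mul, map_mul, chi_glB hm χ hχ hχr hI u, hsc, one_mul] at e2
    exact mul_right_cancel (e2.trans (one_mul _).symm)
  · right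
    refine ⟨⟨k, hk, b', ζ, hb'⟩, ?_⟩
    subst hk
    obtain ⟨u, R, x, hx, hR, hrel⟩ := plus_minus_case (S := S) he hinv₂ hb'
    have e1 : g * glB hI u = scO S d * (R * u) := Subtype.ext hrel
    have e2 := congrArg χ e1
    rw [map_mul, map_mul, map_mul, chi_glB hm χ hχ hχr hI u, hsc, one_mul] at e2
    rw [mul_right_cancel e2]
    exact hχr R x hx hR

/-- Equal forms over the fixed field give a conjugating similarity. -/
theorem conj_of_iso {f : (ι → F) → F} {q : QuadraticForm F (ι → F)} (S : Sys f q) (hI : InvAt f σ) {g_x g_y : CO f} {h_x h_y : GL ι F} {d_x d_y e_x e_y : Fˣ}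
    (hex : (g_x : GL ι F) * glMap σ h_x = sc d_x * h_x) (hey : (g_y : GL ι F) * glMap σ h_y = sc d_y * h_y)
    (hinvx : ∀ v, Q2 q h_x e_x (sv σ v) = σ (Q2 q h_x e_x v)) (hinvy : ∀ v, Q2 q h_y e_y (sv σ v) = σ (Q2 q h_y e_y v))
    (E : (ι → fixedF σ) ≃ₗ[fixedF σ] (ι → fixedF σ))
    (hE : ∀ v, descQ σ (Q2 q h_y e_y) hinvy (E v) = descQ σ (Q2 q h_x e_x) hinvx v) :
    ∃ H : CO f, dl g_y * fb hI = dl H * (dl g_x * fb hI) * (dl H)⁻¹ := by
  set P : GL ι (fixedF σ) := glOf E with hP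
  have hform : ∀ w, Q2 q h_y e_y ((glEmb σ P : GL ι F).1 *ᵥ w) = Q2 q h_x e_x w := by
    have := eq_of_eq_on_emb σ ((Q2 q h_y e_y).comp (Matrix.toLin' (glEmb σ P : GL ι F).1)) (Q2 q h_x e_x) (fun v => by
      change Q2 q h_y e_y ((glEmb σ P : GL ι F).1 *ᵥ emb σ v) = _
      rw [← emb_glEmb, ← coe_descQ σ _ hinvy, ← coe_descQ σ _ hinvx, ← hE v, hP, glOf_mulVec])
    exact this
  set H₀ : GL ι F := h_y * glEmb σ P * h_x⁻¹ with hH₀
  have hcol : ∀ w, (H₀ : Matrix ι ι F) *ᵥ w = (h_y : Matrix ι ι F) *ᵥ ((glEmb σ P : GL ι F).1 *ᵥ (((h_x⁻¹ : GL ι F) : Matrix ι ι F) *ᵥ w)) := by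
    intro w
    rw [hH₀, Units.val_mul, Units.val_mul, Matrix.mulVec_mulVec, Matrix.mulVec_mulVec]
  have hback : ∀ w, (h_x : Matrix ι ι F) *ᵥ (((h_x⁻¹ : GL ι F) : Matrix ι ι F) *ᵥ w) = w := by
    intro w
    rw [Matrix.mulVec_mulVec, ← Units.val_mul, mul_inv_cancel, Units.val_one, Matrix.one_mulVec]
  have hmem : H₀ ∈ CO f := by
    refine ⟨e_y⁻¹ * e_x, fun w => ?_⟩
    have h1 := hform (((h_x⁻¹ : GL ι F) : Matrix ι ι F) *ᵥ w)
    rw [Q2_apply, Q2_apply, hback] at h1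
    rw [hcol, S.hf, S.hf, Units.val_mul, Units.val_inv_eq_inv_val]
    field_simp
    linear_combination h1
  have hxinv : (glMap σ h_x)⁻¹ = h_x⁻¹ * sc d_x⁻¹ * (g_x : GL ι F) := by
    apply inv_eq_of_mul_eq_one_left
    rw [mul_assoc, mul_assoc, hex, sc_inv, ← mul_assoc (sc d_x)⁻¹, inv_mul_cancel, one_mul, inv_mul_cancel]
  have hrel : (g_y : GL ι F) * glMap σ H₀ = sc (d_y * d_x⁻¹) * (H₀ * (g_x : GL ι F)) := by
    calc (g_y : GL ι F) * glMap σ H₀ = ((g_y : GL ι F) * glMap σ h_y) * glEmb σ P * (h_x⁻¹ * sc d_x⁻¹ * (g_x : GL ι F)) := by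
          rw [hH₀, map_mul, map_mul, map_inv, glMap_glEmb, hxinv]
          group
      _ = sc d_y * (h_y * glEmb σ P * h_x⁻¹ * (sc d_x⁻¹ * (g_x : GL ι F))) := by
          rw [hey]
          group
      _ = sc d_y * (sc d_x⁻¹ * (h_y * glEmb σ P * h_x⁻¹ * (g_x : GL ι F))) := by
          rw [← mul_assoc (h_y * glEmb σ P * h_x⁻¹), ← sc_comm d_x⁻¹ (h_y * glEmb σ P * h_x⁻¹), mul_assoc]
      _ = sc (d_y * d_x⁻¹) * (H₀ * (g_x : GL ι F)) := by
          rw [sc_mul, hH₀]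
          simp only [mul_assoc]
  refine ⟨⟨H₀, hmem⟩, ?_⟩
  have e1 : g_y * glB hI ⟨H₀, hmem⟩ = scO S (d_y * d_x⁻¹) * (⟨H₀, hmem⟩ * g_x) := Subtype.ext hrel
  rw [eq_mul_inv_iff_mul_eq, mul_assoc, fb_mul_dl, ← mul_assoc, ← dl_mul, e1, dl_mul, dl_scO, one_mul, dl_mul, mul_assoc]

/-- Two elements of the same class in a coset of a field automorphism whose `r`-th powers are trivial are conjugate. -/
theorem coset_plus (hm : 3 ≤ m) (χ : CO (quadFormPlus m F) →* Multiplicative (ZMod 2))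
    (hχ : ∀ g : CO (quadFormPlus m F), χ g = 1 ↔ PreservesSingularClasses (quadFormPlus m F) ((g : GL (Fin m ⊕ Fin m) F) : Matrix (Fin m ⊕ Fin m) (Fin m ⊕ Fin m) F))
    (hχr : ∀ (g : CO (quadFormPlus m F)) (x : Fin m ⊕ Fin m → F), qPlus m F x ≠ 0 →
        (∀ v, ((g : GL (Fin m ⊕ Fin m) F) : Matrix (Fin m ⊕ Fin m) (Fin m ⊕ Fin m) F).mulVec v = reflLin (qPlus m F) x v) →
        χ g = Multiplicative.ofAdd 1) (hI : InvAt (quadFormPlus m F) σ) {r : ℕ} (hr : 0 < r) (hord : orderOf σ = r)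
    (g_x g_y : CO (quadFormPlus m F)) (hx : (dl g_x * fb hI) ^ r = 1) (hy : (dl g_y * fb hI) ^ r = 1) (hc : χ g_x = χ g_y) :
    ∃ H : CO (quadFormPlus m F), dl g_y * fb hI = dl H * (dl g_x * fb hI) * (dl H)⁻¹ := by
  classical
  have S := sys_plus (F := F) hm
  obtain ⟨h₁, d₁, e₁, inv₁, he₁, T₁⟩ := lang_type hm χ hχ hχr hI hr hord g_x hx
  obtain ⟨h₂, d₂, e₂, inv₂, he₂, T₂⟩ := lang_type hm χ hχ hχr hI hr hord g_y hy
  have hne : (1 : Multiplicative (ZMod 2)) ≠ Multiplicative.ofAdd 1 := by decide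
  rcases T₁ with ⟨⟨b₁, hb₁⟩, c₁⟩ | ⟨⟨k₁, hk₁, b₁, ζ₁, hb₁⟩, c₁⟩ <;> rcases T₂ with ⟨⟨b₂, hb₂⟩, c₂⟩ | ⟨⟨k₂, hk₂, b₂, ζ₂, hb₂⟩, c₂⟩
  · obtain ⟨E, hE⟩ := isometry_of_hyp hb₁ hb₂
    exact conj_of_iso S hI he₁ he₂ inv₁ inv₂ E hE
  · exact absurd (c₁.symm.trans (hc.trans c₂)) hne
  · exact absurd (c₂.symm.trans (hc.symm.trans c₁)) hne
  · have hk : k₁ = k₂ := by omega
    subst hk
    have hnd := ND_descQ σ _ inv₁ (ND_Q2 S.hQ h₁ e₁)
    haveI : Fintype (fixedF σ) := Fintype.ofFinite _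
    obtain ⟨E, hE⟩ := isometry_of_minus hnd hb₁ hb₂
    exact conj_of_iso S hI he₁ he₂ inv₁ inv₂ E hE

end chi

end Cfsg.Agent.Lib.AutPOm
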