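import Cfsg.Agent.Lib.AutPOm.CosetPlus
import Cfsg.Agent.Lib.FieldPOm.Trans

/-!
# A twisted form of extension of scalars
-/

set_option autoImplicit false
set_option linter.unusedSectionVars false
set_option linter.unusedSimpArgs false
set_option linter.unusedVariables false

namespace Cfsg.Agent.Lib.AutPOm

open Module QuadraticMap Cfsg.Agent.Lib.OrthoBasic Cfsg.Agent.Lib.OrthoSiegel Cfsg.Agent.Lib.OrthoGen
  Cfsg.Agent.Lib.OrthoFinal Cfsg.Agent.Lib.PgoPsi Cfsg.Agent.Lib.PgoGroup Cfsg.Agent.Lib.GammaCount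
  Cfsg.Agent.Lib.Hilbert90 Cfsg.Agent.Lib.QuadFF Cfsg.Agent.Lib.QuadClass Cfsg.Agent.Lib.OrthoCount
  Cfsg.Agent.Lib.PgoParity Cfsg.Agent.Lib.PgoClass Cfsg.Agent.Lib.OrthoChar Cfsg.Agent.Lib.OrthoIndex
open Cfsg Matrix

variable {ι₀ ι : Type} [Fintype ι₀] [DecidableEq ι₀] [Fintype ι] [DecidableEq ι] {F₀ F : Type*} [Field F₀] [Field F]

/-- Extension of scalars along `j`, composed with a similarity, compatible with the element `c`. -/
structure Tw (j : F₀ →+* F) (σ : F ≃+* F) (f₀ : (ι₀ → F₀) → F₀) (f : (ι → F) → F)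
    (q₀ : QuadraticForm F₀ (ι₀ → F₀)) (q : QuadraticForm F (ι → F)) (c : GL ι F) where
  W : (ι₀ → F) ≃ₗ[F] (ι → F)
  qF : QuadraticForm F (ι₀ → F)
  comp : Comp j q₀ qF
  e : Fˣ
  d : Fˣ
  hW : ∀ v, q (W v) = e * qF v
  hc : ∀ v, (c : Matrix ι ι F) *ᵥ sv σ (W v) = (d : F) • W (sv σ v)
  S₀ : Sys f₀ q₀
  S : Sys f q
  fix : ∀ x, σ (j x) = j x
  ran : ∀ y, σ y = y → ∃ x, j x = y

lemma gl_ext_mulVec {A B : GL ι F} (h : ∀ v, (A : Matrix ι ι F) *ᵥ v = (B : Matrix ι ι F) *ᵥ v) : A = B :=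
  gl_ext_of_columns fun _ => h _

lemma sv_glMap (σ : F ≃+* F) (g : GL ι F) (v : ι → F) :
    sv σ ((g : Matrix ι ι F) *ᵥ v) = ((glMap σ g : GL ι F) : Matrix ι ι F) *ᵥ sv σ v := by
  rw [sv_mulVec]
  rfl

lemma cP_sc (W : (ι₀ → F) ≃ₗ[F] (ι → F)) (l : Fˣ) : Cfsg.Agent.Lib.FieldPOm.cP W (sc l) = sc l := by
  apply gl_ext_mulVec
  intro v
  rw [Cfsg.Agent.Lib.FieldPOm.cP_mulVec, sc_mulVec, sc_mulVec, map_smul, LinearEquiv.apply_symm_apply]

namespace Tw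

variable {j : F₀ →+* F} {σ : F ≃+* F} {f₀ : (ι₀ → F₀) → F₀} {f : (ι → F) → F}
  {q₀ : QuadraticForm F₀ (ι₀ → F₀)} {q : QuadraticForm F (ι → F)} {c : GL ι F}
  (T : Tw j σ f₀ f q₀ q c)

/-- The map on invertible matrices. -/
noncomputable def toGL : GL ι₀ F₀ →* GL ι F :=
  (Cfsg.Agent.Lib.FieldPOm.cP T.W).toMonoidHom.comp (glJ j)

lemma toGL_W (g₀ : GL ι₀ F₀) (v : ι₀ → F) :
    ((T.toGL g₀ : GL ι F) : Matrix ι ι F) *ᵥ T.W v = T.W ((glJ j g₀ : GL ι₀ F).1 *ᵥ v) :=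
  Cfsg.Agent.Lib.FieldPOm.cP_mulVec_P _ _ _

lemma sim {g₀ : GL ι₀ F₀} {μ : F₀} (hg₀ : ∀ v, q₀ ((g₀ : Matrix ι₀ ι₀ F₀) *ᵥ v) = μ * q₀ v) (w : ι → F) :
    q (((T.toGL g₀ : GL ι F) : Matrix ι ι F) *ᵥ w) = j μ * q w := by
  obtain ⟨v, rfl⟩ := T.W.surjective w
  rw [toGL_W, T.hW, T.hW, sim_glJ T.comp hg₀]
  ring

lemma mem_CO (g₀ : CO f₀) : T.toGL g₀ ∈ CO f := by
  obtain ⟨μ, hμ⟩ := g₀.2
  refine ⟨Units.map (j : F₀ →* F) μ, fun w => ?_⟩
  rw [T.S.hf, T.S.hf]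
  apply T.sim
  intro v
  rw [← T.S₀.hf, ← T.S₀.hf]
  exact hμ v

/-- The map on similarities. -/
noncomputable def mp : CO f₀ →* CO f :=
  (T.toGL.comp (CO f₀).subtype).codRestrict _ T.mem_CO

lemma mp_coe (g₀ : CO f₀) : ((T.mp g₀ : CO f) : GL ι F) = T.toGL g₀ := rfl

include T in
lemma sv_glJ (g₀ : GL ι₀ F₀) (v : ι₀ → F) :
    sv σ ((glJ j g₀ : GL ι₀ F).1 *ᵥ v) = (glJ j g₀ : GL ι₀ F).1 *ᵥ sv σ v := by
  rw [sv_glMap, glMap_glJ T.fix]

/-- The images are compatible with `c`. -/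
lemma twist (g₀ : GL ι₀ F₀) : T.toGL g₀ * c = c * glMap σ (T.toGL g₀) := by
  apply gl_ext_mulVec
  intro z
  obtain ⟨v, rfl⟩ : ∃ v, z = sv σ (T.W v) := ⟨T.W.symm (sv σ.symm z), by simp⟩
  rw [Units.val_mul, Units.val_mul, ← Matrix.mulVec_mulVec, ← Matrix.mulVec_mulVec, T.hc, Matrix.mulVec_smul, toGL_W,
    ← sv_glMap, toGL_W, T.hc, sv_glJ T]

lemma symm_W (u : GL ι F) (v : ι₀ → F) :
    T.W (((Cfsg.Agent.Lib.FieldPOm.cP T.W).symm u : GL ι₀ F).1 *ᵥ v) = (u : Matrix ι ι F) *ᵥ T.W v := by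
  rw [← Cfsg.Agent.Lib.FieldPOm.cP_mulVec_P, MulEquiv.apply_symm_apply]

/-- Elements compatible with `c` up to a scalar come from elements fixed up to a scalar. -/
lemma symm_fixed {u : GL ι F} {l : Fˣ} (hu : u * c = sc l * (c * glMap σ u)) :
    glMap σ ((Cfsg.Agent.Lib.FieldPOm.cP T.W).symm u) = sc l⁻¹ * (Cfsg.Agent.Lib.FieldPOm.cP T.W).symm u := by
  set ũ := (Cfsg.Agent.Lib.FieldPOm.cP T.W).symm u with hũ
  have hu' : c * glMap σ u = sc l⁻¹ * (u * c) := by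
    rw [hu, sc_inv, inv_mul_cancel_left]
  apply gl_ext_mulVec
  intro z
  obtain ⟨v, rfl⟩ : ∃ v, z = sv σ v := ⟨sv σ.symm z, by simp⟩
  rw [← sv_glMap]
  apply T.W.injective
  have hd : (T.d : F) ≠ 0 := T.d.ne_zero
  have h1 := T.hc ((ũ : Matrix ι₀ ι₀ F) *ᵥ v)
  rw [T.symm_W, sv_glMap, Matrix.mulVec_mulVec, ← Units.val_mul, hu', Units.val_mul, ← Matrix.mulVec_mulVec, sc_mulVec,
    Units.val_mul, ← Matrix.mulVec_mulVec, T.hc, Matrix.mulVec_smul, ← T.symm_W] at h1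
  have h2 : (T.W (sv σ ((ũ : Matrix ι₀ ι₀ F) *ᵥ v))) = (l⁻¹ : Fˣ).1 • T.W ((ũ : Matrix ι₀ ι₀ F) *ᵥ sv σ v) := by
    have h3 := congrArg (fun y => (T.d : F)⁻¹ • y) h1
    simp only [smul_smul, inv_mul_cancel₀ hd, one_smul] at h3
    rw [← h3]
    rw [mul_comm, mul_assoc, mul_inv_cancel₀ hd, mul_one]
  rw [h2, Units.val_mul, ← Matrix.mulVec_mulVec, sc_mulVec, map_smul]

/-- A matrix over the small field which is a similarity over the large field is a similarity. -/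
lemma mem_CO_of_glJ {u₀ : GL ι₀ F₀} {μ : Fˣ}
    (hu : ∀ w, T.qF ((glJ j u₀ : GL ι₀ F).1 *ᵥ w) = μ * T.qF w) : u₀ ∈ CO f₀ := by
  obtain ⟨v₀, hv₀⟩ : ∃ v : ι₀ → F₀, q₀ v ≠ 0 := by
    obtain ⟨fr⟩ := T.S₀.fr
    refine ⟨fr.e₁ + fr.f₁, ?_⟩
    rw [Q_add, fr.h₁.Qe, fr.h₁.Qf, fr.h₁.B]
    simp
  set c₀ : F₀ := q₀ ((u₀ : Matrix ι₀ ι₀ F₀) *ᵥ v₀) / q₀ v₀ with hc₀
  have hcc : j c₀ = μ := by
    have h1 := hu (mapV j v₀)
    rw [← mapV_glJ, T.comp.map, T.comp.map] at h1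
    rw [hc₀, map_div₀, h1]
    have : j (q₀ v₀) ≠ 0 := (map_ne_zero j).2 hv₀
    field_simp
  have hc₀0 : c₀ ≠ 0 := by
    intro h0
    rw [h0, map_zero] at hcc
    exact μ.ne_zero hcc.symm
  refine ⟨Units.mk0 c₀ hc₀0, fun v => ?_⟩
  rw [T.S₀.hf, T.S₀.hf, Units.val_mk0]
  apply sim_of_glJ T.comp
  intro w
  rw [hcc]
  exact hu w

/-- The multiplier of the map back. -/
lemma symm_sim {u : GL ι F} {μ : F} (hu : ∀ z, q ((u : Matrix ι ι F) *ᵥ z) = μ * q z) (v : ι₀ → F) :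
    T.qF (((Cfsg.Agent.Lib.FieldPOm.cP T.W).symm u : GL ι₀ F).1 *ᵥ v) = μ * T.qF v := by
  have he : (T.e : F) ≠ 0 := T.e.ne_zero
  have h1 := T.hW (((Cfsg.Agent.Lib.FieldPOm.cP T.W).symm u : GL ι₀ F).1 *ᵥ v)
  rw [T.symm_W, hu, T.hW] at h1
  apply mul_left_cancel₀ he
  rw [← h1]
  ring

/-- Elements compatible with `c` come from the small field. -/
theorem exists_of_twist {u : CO f} {l : Fˣ} (hu : (u : GL ι F) * c = sc l * (c * glMap σ (u : GL ι F)))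
    [Fintype F] {r : ℕ} (hr : 0 < r) (hord : orderOf σ = r) :
    ∃ (d : Fˣ) (g₀ : CO f₀), T.mp g₀ = scO T.S d * u := by
  have hne : Nonempty ι₀ := nonempty_of_sys T.S₀
  have hfx := T.symm_fixed hu
  obtain ⟨d, hd⟩ := exists_fixed_of_commute hr hord hfx
  obtain ⟨u₀, hu₀⟩ := exists_glJ_of_fixed T.ran hd
  obtain ⟨μ, hμ⟩ := u.2
  have hμ' : ∀ z, q (((u : GL ι F) : Matrix ι ι F) *ᵥ z) = μ * q z := by
    intro z
    rw [← T.S.hf, ← T.S.hf]
    exact hμ z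
  have hCO : u₀ ∈ CO f₀ := by
    apply T.mem_CO_of_glJ (μ := d * d * μ)
    intro w
    rw [hu₀, Units.val_mul, ← Matrix.mulVec_mulVec, sc_mulVec, Q_sm, T.symm_sim hμ']
    simp only [Units.val_mul]
    ring
  refine ⟨d, ⟨u₀, hCO⟩, ?_⟩
  apply Subtype.ext
  change Cfsg.Agent.Lib.FieldPOm.cP T.W (glJ j u₀) = sc d * (u : GL ι F)
  rw [hu₀, map_mul, cP_sc, MulEquiv.apply_symm_apply]

include T in
/-- Commuting with the twisted automorphism. -/
theorem twist_of_commute [Fintype F] (hI : InvAt f σ) (cc : CO f) (hcc : (cc : GL ι F) = c) (u : CO f)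
    (h : Commute (dl u) (dl cc * fb hI)) : ∃ l : Fˣ, (u : GL ι F) * c = sc l * (c * glMap σ (u : GL ι F)) := by
  have h1 : dl u * (dl cc * fb hI) = dl cc * fb hI * dl u := h
  rw [mul_assoc (dl cc), fb_mul_dl, ← mul_assoc, ← mul_assoc, ← dl_mul, ← dl_mul] at h1
  have h2 := mul_right_cancel h1
  obtain ⟨l, hl⟩ := (dl_eq_dl_iff T.S _ _).1 h2
  refine ⟨l, ?_⟩
  rw [← hcc]
  exact hl

/-- The images commute with the twisted automorphism. -/
lemma commute_mp [Fintype F] (hI : InvAt f σ) (cc : CO f) (hcc : (cc : GL ι F) = c) (g₀ : CO f₀) :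
    Commute (dl (T.mp g₀)) (dl cc * fb hI) := by
  change dl (T.mp g₀) * (dl cc * fb hI) = dl cc * fb hI * dl (T.mp g₀)
  rw [mul_assoc (dl cc), fb_mul_dl, ← mul_assoc, ← mul_assoc, ← dl_mul, ← dl_mul]
  congr 2
  apply Subtype.ext
  change T.toGL g₀ * (cc : GL ι F) = (cc : GL ι F) * glMap σ (T.toGL g₀)
  rw [hcc]
  exact T.twist _

lemma mp_sc (c₀ : F₀ˣ) : T.mp (scO T.S₀ c₀) = scO T.S (Units.map (j : F₀ →* F) c₀) := by
  apply Subtype.ext
  change Cfsg.Agent.Lib.FieldPOm.cP T.W (glJ j (sc c₀)) = sc (Units.map (j : F₀ →* F) c₀)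
  have e : glJ j (sc c₀ : GL ι₀ F₀) = sc (Units.map (j : F₀ →* F) c₀) := by
    apply Units.ext
    ext s t
    simp [sc_coe, Matrix.scalar_apply, Matrix.diagonal_apply]
    split_ifs <;> simp
  rw [e, cP_sc]

lemma dl_mp_eq_one_iff [Fintype F] [Fintype F₀] (g₀ : CO f₀) : dl (T.mp g₀) = 1 ↔ dl g₀ = 1 := by
  have hne : Nonempty ι₀ := nonempty_of_sys T.S₀
  rw [dl_eq_one_iff T.S, dl_eq_one_iff T.S₀]
  constructor
  · rintro ⟨l, hl⟩
    have h1 : Cfsg.Agent.Lib.FieldPOm.cP T.W (glJ j (g₀ : GL ι₀ F₀)) = sc l := hl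
    have h2 : glJ j (g₀ : GL ι₀ F₀) = sc l := by
      apply (Cfsg.Agent.Lib.FieldPOm.cP T.W).injective
      rw [h1, cP_sc]
    exact scalar_of_glJ h2
  · rintro ⟨c₀, hc₀⟩
    refine ⟨Units.map (j : F₀ →* F) c₀, ?_⟩
    have e : g₀ = scO T.S₀ c₀ := Subtype.ext hc₀
    rw [e, T.mp_sc]
    rfl

/-- The centraliser of the twisted automorphism. -/
theorem cent_equiv [Fintype F] [Fintype F₀] (hI : InvAt f σ) (cc : CO f) (hcc : (cc : GL ι F) = c) {r : ℕ} (hr : 0 < r) (hord : orderOf σ = r)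
    (A : Subgroup (CO f)) (A₀ : Subgroup (CO f₀))
    (hA : ∀ g : CO f₀, g ∈ A₀ ↔ T.mp g ∈ A)
    (hAz : ∀ (g : CO f) (d : Fˣ), scO T.S d * g ∈ A ↔ g ∈ A) :
    Nonempty (↥(A.map (psiO f) ⊓ Subgroup.centralizer {(dl cc * fb hI : MulAut (POmega F f))}) ≃* ↥(A₀.map (psiO f₀))) := by
  classical
  set e := T.mp with he
  have hmem : ∀ g : A₀, dl (e g) ∈ A.map (psiO f) ⊓ Subgroup.centralizer {(dl cc * fb hI : MulAut (POmega F f))} := by
    intro g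
    refine ⟨⟨e g, (hA g).1 g.2, rfl⟩, ?_⟩
    change dl (e g) ∈ Subgroup.centralizer {(dl cc * fb hI : MulAut (POmega F f))}
    rw [Subgroup.mem_centralizer_singleton_iff]
    exact T.commute_mp hI cc hcc _
  let P₁ : A₀ →* ↥(A.map (psiO f) ⊓ Subgroup.centralizer {(dl cc * fb hI : MulAut (POmega F f))}) :=
    ((psiO f).comp (e.comp A₀.subtype)).codRestrict _ hmem
  let P₀ : A₀ →* ↥(A₀.map (psiO f₀)) := (psiO f₀).subgroupMap A₀
  have hP₀ : Function.Surjective P₀ := (psiO f₀).subgroupMap_surjective A₀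
  have hP₁ : Function.Surjective P₁ := by
    rintro ⟨β, ⟨u, hu, rfl⟩, hβ⟩
    replace hβ : dl u ∈ Subgroup.centralizer {(dl cc * fb hI : MulAut (POmega F f))} := hβ
    rw [Subgroup.mem_centralizer_singleton_iff] at hβ
    obtain ⟨l, hl⟩ := T.twist_of_commute hI cc hcc u hβ
    obtain ⟨d, g₀, hg₀⟩ := T.exists_of_twist hl hr hord
    have hg₀A : g₀ ∈ A₀ := by
      rw [hA, he, hg₀, hAz]
      exact hu
    refine ⟨⟨g₀, hg₀A⟩, ?_⟩
    apply Subtype.ext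
    change dl (e g₀) = dl u
    rw [he, hg₀, dl_mul, dl_scO, one_mul]
  have hker : P₁.ker = P₀.ker := by
    ext g
    rw [MonoidHom.mem_ker, MonoidHom.mem_ker]
    have h1 : P₁ g = 1 ↔ dl (e g) = 1 := by
      constructor
      · intro h
        exact congrArg Subtype.val h
      · intro h
        exact Subtype.ext h
    have h2 : P₀ g = 1 ↔ dl (g : CO f₀) = 1 := by
      constructor
      · intro h
        exact congrArg Subtype.val h
      · intro h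
        exact Subtype.ext h
    rw [h1, h2, he, T.dl_mp_eq_one_iff]
  exact ⟨((QuotientGroup.quotientKerEquivOfSurjective P₁ hP₁).symm.trans
    (QuotientGroup.quotientMulEquivOfEq hker)).trans (QuotientGroup.quotientKerEquivOfSurjective P₀ hP₀)⟩

/-- Non-zero values. -/
lemma q_W_ne {x : ι₀ → F₀} (hx : q₀ x ≠ 0) : q (T.W (mapV j x)) ≠ 0 := by
  rw [T.hW, T.comp.map]
  exact mul_ne_zero T.e.ne_zero ((map_ne_zero j).2 hx)

/-- The image of a reflection. -/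
lemma toGL_reflLin {r₀ : GL ι₀ F₀} {x : ι₀ → F₀} (hr₀ : ∀ v, (r₀ : Matrix ι₀ ι₀ F₀) *ᵥ v = reflLin q₀ x v) (w : ι → F) :
    ((T.toGL r₀ : GL ι F) : Matrix ι ι F) *ᵥ w = reflLin q (T.W (mapV j x)) w := by
  obtain ⟨v, rfl⟩ := T.W.surjective w
  rw [toGL_W, glJ_reflLin T.comp hr₀, reflLin_apply, reflLin_apply, map_sub, map_smul]
  have he : (T.e : F) ≠ 0 := T.e.ne_zero
  congr 2
  have hp : polar q (T.W v) (T.W (mapV j x)) = T.e * polar T.qF v (mapV j x) := by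
    simp only [polar, ← map_add, T.hW]
    ring
  rw [hp, T.hW, mul_div_mul_left _ _ he]

/-- The image of a reflection. -/
lemma mp_reflLin {r₀ : CO f₀} {x : ι₀ → F₀} (hr₀ : ∀ v, ((r₀ : GL ι₀ F₀) : Matrix ι₀ ι₀ F₀) *ᵥ v = reflLin q₀ x v) (w : ι → F) :
    ((T.mp r₀ : GL ι F) : Matrix ι ι F) *ᵥ w = reflLin q (T.W (mapV j x)) w :=
  T.toGL_reflLin hr₀ w

/-- Elements exactly compatible with `c` come from the small field. -/
theorem exists_of_twist_one {u : CO f} (hu : (u : GL ι F) * c = c * glMap σ (u : GL ι F)) :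
    ∃ g₀ : CO f₀, T.mp g₀ = u := by
  have hu' : (u : GL ι F) * c = sc 1 * (c * glMap σ (u : GL ι F)) := by
    rw [sc_one, one_mul, hu]
  have hfx := T.symm_fixed hu'
  rw [inv_one, sc_one, one_mul] at hfx
  obtain ⟨u₀, hu₀⟩ := exists_glJ_of_fixed T.ran hfx
  obtain ⟨μ, hμ⟩ := u.2
  have hμ' : ∀ z, q (((u : GL ι F) : Matrix ι ι F) *ᵥ z) = μ * q z := by
    intro z
    rw [← T.S.hf, ← T.S.hf]
    exact hμ z
  have hCO : u₀ ∈ CO f₀ := by
    apply T.mem_CO_of_glJ (μ := μ)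
    intro w
    rw [hu₀, T.symm_sim hμ']
  refine ⟨⟨u₀, hCO⟩, ?_⟩
  apply Subtype.ext
  change Cfsg.Agent.Lib.FieldPOm.cP T.W (glJ j u₀) = (u : GL ι F)
  rw [hu₀, MulEquiv.apply_symm_apply]

/-- The image of an isometry is an isometry. -/
lemma toGL_mem_iso (a : isometryGroup F₀ f₀) : T.toGL (a : GL ι₀ F₀) ∈ isometryGroup F f := by
  rw [GammaCount.mem_iso_iff]
  intro w
  rw [T.S.hf, T.S.hf]
  have h1 := T.sim (g₀ := (a : GL ι₀ F₀)) (μ := 1) (fun v => by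
    rw [one_mul, ← T.S₀.hf, ← T.S₀.hf]
    exact (GammaCount.mem_iso_iff f₀ _).1 a.2 v) w
  rw [h1, map_one, one_mul]

/-- The map on isometries. -/
noncomputable def isoT : isometryGroup F₀ f₀ →* isometryGroup F f :=
  (T.toGL.comp (isometryGroup F₀ f₀).subtype).codRestrict _ T.toGL_mem_iso

lemma isoT_coe (a : isometryGroup F₀ f₀) : ((T.isoT a : isometryGroup F f) : GL ι F) = T.toGL a := rfl

/-- The map on orthogonal groups. -/
noncomputable def th : OG q₀ →* OG q :=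
  (isoOG f q T.S.hf).toMonoidHom.comp (T.isoT.comp (isoOG f₀ q₀ T.S₀.hf).symm.toMonoidHom)

lemma th_apply (o : OG q₀) (w : ι → F) :
    ((T.th o : OG q) : (ι → F) ≃ₗ[F] (ι → F)) w = ((T.toGL ((isoOG f₀ q₀ T.S₀.hf).symm o : isometryGroup F₀ f₀).1 : GL ι F) : Matrix ι ι F) *ᵥ w := by
  rfl

lemma th_refl {o : OG q₀} {x : ι₀ → F₀} (ho : IsRefl o x) : IsRefl (T.th o) (T.W (mapV j x)) := by
  refine ⟨T.q_W_ne ho.1, fun w => ?_⟩
  rw [th_apply]
  apply T.toGL_reflLin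
  intro v
  rw [← isoOG_apply f₀ q₀ T.S₀.hf, MulEquiv.apply_symm_apply]
  exact ho.2 v

/-- The character on images of isometries of determinant one, when all values become squares. -/
theorem chi_th [Fintype F₀] [Fintype F] (hodd₀ : Odd (Fintype.card F₀)) (hsq : ∀ c : F₀, c ≠ 0 → IsSquare (j c)) (a : OG q₀) (ha : detO q₀ a = 1) :
    chi q (T.th a) = 1 := by
  obtain ⟨fr₀⟩ := T.S₀.fr
  obtain ⟨fr⟩ := T.S.fr
  have hQ₀ := T.S₀.hQ
  have hQ := T.S.hQ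
  have hgen₀ := T.S₀.hgen
  have h2F₀ := char_ne_two_of_odd hodd₀
  have hx₀ : q₀ (fr₀.e₁ + fr₀.f₁) ≠ 0 := by
    rw [Q_add, fr₀.h₁.Qe, fr₀.h₁.Qf, fr₀.h₁.B]
    simp
  set r₀ := refl hQ₀ hx₀ with hr₀
  set ε := chi q (T.th r₀) with hε
  have hεε : ε * ε = 1 := Int.units_mul_self ε
  have hinvε : ε⁻¹ = ε := by
    rw [inv_eq_iff_mul_eq_one]
    exact hεε
  have hneg : detO q₀ r₀ = -1 := by
    apply Units.ext
    rw [detO_refl hQ₀ hx₀ h2F₀]
    simp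
  have key : ∀ a : OG q₀, (chi q (T.th a) = 1 ∧ detO q₀ a = 1) ∨ (chi q (T.th a) = ε ∧ detO q₀ a = -1) := by
    intro a
    have hmem : a ∈ genR q₀ := by
      rw [hgen₀]
      exact Subgroup.mem_top a
    induction hmem using Subgroup.closure_induction with
    | mem x hx =>
      rcases hx with ⟨e, y, hs⟩ | ⟨x', hs⟩
      · left
        exact ⟨hom_E ((chi q).comp T.th) hQ₀ fr₀ hs.mem, hom_E (detO q₀) hQ₀ fr₀ hs.mem⟩
      · right
        have hx' := hs.1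
        have hxe : x = refl hQ₀ hx' := OG_ext (fun v => hs.2 v)
        constructor
        · have h0 : j (q₀ (fr₀.e₁ + fr₀.f₁)) ≠ 0 := (map_ne_zero j).2 hx₀
          have hc0 : q₀ x' / q₀ (fr₀.e₁ + fr₀.f₁) ≠ 0 := div_ne_zero hx' hx₀
          obtain ⟨d, hd⟩ := hsq _ hc0
          have hd0 : d ≠ 0 := by
            rintro rfl
            rw [mul_zero] at hd
            exact (map_ne_zero j).2 hc0 hd
          have hmem := refl_mul_inv_mem hQ fr (T.th_refl hs) (T.th_refl (refl_isRefl hQ₀ hx₀)) hd0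
            (by
              rw [T.hW, T.hW, T.comp.map, T.comp.map]
              have h3 : j (q₀ x') = (j (q₀ x') / j (q₀ (fr₀.e₁ + fr₀.f₁))) * j (q₀ (fr₀.e₁ + fr₀.f₁)) := by
                field_simp
              rw [h3, ← map_div₀, hd]
              ring)
          have h5 := hom_E (chi q) hQ fr hmem
          rw [map_mul, map_inv] at h5
          exact mul_inv_eq_one.1 h5
        · rw [hxe]
          apply Units.ext
          rw [detO_refl hQ₀ hx' h2F₀]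
          simp
    | one =>
      left
      simp
    | mul x y _ _ hx hy =>
      have hneg1 : (-1 : F₀ˣ) * (-1) = 1 := by simp
      rcases hx with ⟨h1, h2⟩ | ⟨h1, h2⟩ <;> rcases hy with ⟨h3, h4⟩ | ⟨h3, h4⟩
      · left
        simp [h1, h2, h3, h4]
      · right
        simp [h1, h2, h3, h4]
      · right
        simp [h1, h2, h3, h4]
      · left
        simp [h1, h2, h3, h4, hεε]
    | inv x _ hx =>
      rcases hx with ⟨h1, h2⟩ | ⟨h1, h2⟩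
      · left
        simp [h1, h2]
      · right
        simp [h1, h2, hinvε]
  rcases key a with ⟨h1, -⟩ | ⟨-, h1⟩
  · exact h1
  · exfalso
    rw [ha] at h1
    have h3 := congrArg Units.val h1
    simp only [Units.val_one, Units.val_neg] at h3
    apply h2F₀
    linear_combination h3

/-- The determinant. -/
lemma det_mp (g₀ : CO f₀) : (((T.mp g₀ : GL ι F)) : Matrix ι ι F).det = j (((g₀ : GL ι₀ F₀)) : Matrix ι₀ ι₀ F₀).det := by
  rw [mp_coe]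
  change ((Cfsg.Agent.Lib.FieldPOm.cP T.W (glJ j (g₀ : GL ι₀ F₀)) : GL ι F) : Matrix ι ι F).det = _
  rw [Cfsg.Agent.Lib.FieldPOm.cP_det]
  exact (RingHom.map_det j _).symm

end Tw

section construct

universe u v

variable {F : Type u} {F₀ : Type v} [Field F] [Fintype F] [Field F₀] [Fintype F₀] {k : ℕ} {σ : F ≃+* F}

lemma sv_sum {κ : Type*} {ι : Type} (σ : F ≃+* F) (s : Finset κ) (g : κ → ι → F) : sv σ (∑ i ∈ s, g i) = ∑ i ∈ s, sv σ (g i) := by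
  funext x
  simp [sv, map_sum, Finset.sum_apply]

/-- The twisted data for an element of the class interchanging the two families. -/
theorem exists_tw (hk : 2 ≤ k) (χ : CO (quadFormPlus (k + 1) F) →* Multiplicative (ZMod 2))
    (hχ : ∀ g : CO (quadFormPlus (k + 1) F), χ g = 1 ↔ PreservesSingularClasses (quadFormPlus (k + 1) F) ((g : GL (Fin (k + 1) ⊕ Fin (k + 1)) F) : Matrix (Fin (k + 1) ⊕ Fin (k + 1)) (Fin (k + 1) ⊕ Fin (k + 1)) F))
    (hχr : ∀ (g : CO (quadFormPlus (k + 1) F)) (x : Fin (k + 1) ⊕ Fin (k + 1) → F), qPlus (k + 1) F x ≠ 0 →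
        (∀ v, ((g : GL (Fin (k + 1) ⊕ Fin (k + 1)) F) : Matrix (Fin (k + 1) ⊕ Fin (k + 1)) (Fin (k + 1) ⊕ Fin (k + 1)) F).mulVec v = reflLin (qPlus (k + 1) F) x v) →
        χ g = Multiplicative.ofAdd 1) (hI : InvAt (quadFormPlus (k + 1) F) σ) {r : ℕ} (hr : 0 < r) (hord : orderOf σ = r)
    (c : CO (quadFormPlus (k + 1) F)) (hc : (dl c * fb hI) ^ r = 1) (hχc : χ c = Multiplicative.ofAdd 1)
    (j : F₀ →+* F) (hfix : ∀ x, σ (j x) = j x) (hran : ∀ y, σ y = y → ∃ x, j x = y) :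
    ∃ b₀ : F₀, (∀ z₁ z₂ : F₀, z₁ ^ 2 + 1 * z₁ * z₂ + b₀ * z₂ ^ 2 = 0 → z₁ = 0 ∧ z₂ = 0) ∧
      Nonempty (Tw j σ (quadFormMinus k F₀ 1 b₀) (quadFormPlus (k + 1) F) (qMinus k 1 b₀) (qPlus (k + 1) F) (c : GL (Fin (k + 1) ⊕ Fin (k + 1)) F)) := by
  classical
  obtain ⟨h, d, e, hinv₂, he, hT⟩ := lang_type (by omega) χ hχ hχr hI hr hord c hc
  rcases hT with ⟨-, hc1⟩ | ⟨⟨k', hk', b', ζ, hb'⟩, -⟩
  · exact absurd (hc1.symm.trans hχc) (by decide)
  obtain rfl : k = k' := by omega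
  have hS := sys_plus (F := F) (show 3 ≤ k + 1 by omega)
  have hnd := ND_descQ σ _ hinv₂ (ND_Q2 hS.hQ h e)
  haveI : Fintype (fixedF σ) := Fintype.ofFinite _
  obtain ⟨E, hE⟩ := Cfsg.Agent.Lib.QuadClass2.iso_of_minus_basis hnd hb'
  obtain ⟨b₀, hb₀⟩ := hran (ζ : F) ζ.2
  have hab₀ : ∀ z₁ z₂ : F₀, z₁ ^ 2 + 1 * z₁ * z₂ + b₀ * z₂ ^ 2 = 0 → z₁ = 0 ∧ z₂ = 0 := by
    apply Cfsg.Agent.Lib.QuadClass2.ani_of_zeta
    intro t ht
    apply hb'.1 ⟨j t, hfix t⟩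
    apply Subtype.ext
    have := congrArg j ht
    simp only [map_add, map_mul, map_pow, map_zero, hb₀] at this
    exact this
  let b'' : Module.Basis (Ix k) (fixedF σ) (Fin (k + 1) ⊕ Fin (k + 1) → fixedF σ) := (Pi.basisFun (fixedF σ) (Ix k)).map E.symm
  obtain ⟨bF, hbF⟩ := exists_basis_emb b''
  let tL : (Ix k → F) ≃ₗ[F] (Fin (k + 1) ⊕ Fin (k + 1) → F) := bF.equivFun.symm
  have htL0 : ∀ v, tL v = ∑ i, v i • bF i := fun v => Module.Basis.equivFun_symm_apply _ _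
  have htL : ∀ v : Ix k → fixedF σ, tL (emb σ v) = emb σ (E.symm v) := by
    intro v
    have h1 : E.symm v = ∑ i, v i • b'' i := by
      conv_lhs => rw [← (Pi.basisFun (fixedF σ) (Ix k)).sum_repr v]
      rw [map_sum]
      refine Finset.sum_congr rfl fun i _ => ?_
      rw [map_smul]
      simp [b'']
    rw [htL0, h1]
    funext x
    simp [emb, hbF, Finset.sum_apply]
  have hsvL : ∀ v, sv σ (tL v) = tL (sv σ v) := by
    intro v
    rw [htL0, htL0, sv_sum]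
    refine Finset.sum_congr rfl fun i _ => ?_
    rw [sv_smul', hbF, sv_emb]
    rfl
  let W : (Ix k → F) ≃ₗ[F] (Fin (k + 1) ⊕ Fin (k + 1) → F) := tL.trans (glEquiv h)
  have hWa : ∀ v, W v = (h : Matrix _ _ F) *ᵥ tL v := fun v => glEquiv_apply h (tL v)
  have hcomp := comp_minus j k 1 b₀
  have hform : ∀ v, Q2 (qPlus (k + 1) F) h e (tL v) = qMinus k (j 1) (j b₀) v := by
    intro v
    refine form_eq_on_map j ((Q2 (qPlus (k + 1) F) h e).comp (tL : (Ix k → F) →ₗ[F] (Fin (k + 1) ⊕ Fin (k + 1) → F))) (qMinus k (j 1) (j b₀)) (fun v₀ => ?_) v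
    change Q2 (qPlus (k + 1) F) h e (tL (mapV j v₀)) = _
    let v₁ : Ix k → fixedF σ := fun i => ⟨j (v₀ i), hfix _⟩
    have hv₁ : mapV j v₀ = emb σ v₁ := rfl
    rw [hv₁, htL, ← coe_descQ σ _ hinv₂, ← hE, LinearEquiv.apply_symm_apply]
    have h5 := (comp_minus (fixedF σ).subtype k 1 ζ).map v₁
    have h6 : mapV (fixedF σ).subtype v₁ = emb σ v₁ := rfl
    rw [h6] at h5
    have h7 : (fixedF σ).subtype 1 = j 1 := by simp
    have h8 : (fixedF σ).subtype ζ = j b₀ := hb₀.symm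
    rw [h7, h8] at h5
    exact h5.symm
  refine ⟨b₀, hab₀, ⟨⟨W, qMinus k (j 1) (j b₀), hcomp, e⁻¹, d, fun v => ?_, fun v => ?_, sys_minus hk hab₀, hS, hfix, hran⟩⟩⟩
  · have h1 := hform v
    rw [Q2_apply] at h1
    rw [hWa, ← h1, Units.val_inv_eq_inv_val]
    have := e.ne_zero
    field_simp
  · rw [hWa, hWa, sv_glMap, hsvL, Matrix.mulVec_mulVec, ← Units.val_mul, he, Units.val_mul, ← Matrix.mulVec_mulVec, sc_mulVec]

end construct

end Cfsg.Agent.Lib.AutPOm
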